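import Cfsg.Agent.H63.AnDefs2
import Cfsg.Agent.H94.AAEndP
import Cfsg.Agent.H86.Alt3

/-!
# A standard subgroup of type `Aₙ`: elements interchanging `t` and `t w`
-/

set_option autoImplicit false

namespace Cfsg.Agent.H2An

open Cfsg Cfsg.Agent.H63 Cfsg.Agent.H63.SL Cfsg.Agent.H63.AN Subgroup Cfsg.Agent.H7.AA
open Cfsg.Agent.H78 (c3 altOn symOn)
open Equiv (swap Perm)
open Equiv.Perm (sign)

universe u

variable {G : Type u} [Group G] {α : Type} [Fintype α] [DecidableEq α]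
  {ψ : alternatingGroup α →* G} {t : G}

theorem simple_altOn {S : Finset α} (h : 5 ≤ S.card) : IsSimpleGroup (altOn S) := by
  obtain ⟨e⟩ := H86.nonempty_altOn_equiv S
  have := alternatingGroup.isSimpleGroup (α := Fin S.card) (by simpa using h)
  exact e.isSimpleGroup

theorem d2_sq {a b c d : α} (h : [a, b, c, d].Nodup) : d2 a b c d * d2 a b c d = 1 :=
  (d2_kpair h).aa

theorem exists_four {S : Finset α} (h : 5 ≤ S.card) :
    ∃ p q : altOn S, p * p = 1 ∧ q * q = 1 ∧ p * q * (p * q) = 1 ∧ p ≠ 1 ∧ q ≠ 1 ∧ p * q ≠ 1 := by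
  obtain ⟨T, hT, c4⟩ := Finset.exists_subset_card_eq (show 4 ≤ S.card by omega)
  obtain ⟨a, T', ha, rfl, c3'⟩ := Finset.card_eq_succ.1 c4
  obtain ⟨b, c, d, bc, bd, cd, rfl⟩ := Finset.card_eq_three.1 c3'
  simp only [Finset.mem_insert, Finset.mem_singleton, not_or] at ha
  have nd : [a, b, c, d].Nodup := nodup4.2 ⟨ha.1, ha.2.1, ha.2.2, bc, bd, cd⟩
  have m : ∀ x y z w : α, x ∈ S → y ∈ S → z ∈ S → w ∈ S → x ≠ y → z ≠ w → d2 x y z w ∈ altOn S :=
    fun x y z w hx hy hz hw e1 e2 => ⟨mul_mem (H78.swap_mem_symOn hx hy) (H78.swap_mem_symOn hz hw),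
      Equiv.Perm.mem_alternatingGroup.2 (sign_d2 e1 e2)⟩
  have aS : a ∈ S := hT (by simp)
  have bS : b ∈ S := hT (by simp)
  have cS : c ∈ S := hT (by simp)
  have dS : d ∈ S := hT (by simp)
  have n2 : [a, c, b, d].Nodup := nodup4.2 ⟨ha.2.1, ha.1, ha.2.2, bc.symm, cd, bd⟩
  have n3 : [a, d, b, c].Nodup := nodup4.2 ⟨ha.2.2, ha.1, ha.2.1, bd.symm, cd.symm, bc⟩
  have ne : ∀ x y z w : α, [x, y, z, w].Nodup → d2 x y z w ≠ 1 := fun x y z w n e => by
    have := H94.AAE.card_d2 n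
    rw [e] at this
    simp at this
  refine ⟨⟨_, m a b c d aS bS cS dS ha.1 cd⟩, ⟨_, m a c b d aS cS bS dS ha.2.1 bd⟩,
    Subtype.ext (d2_sq nd), Subtype.ext (d2_sq n2), Subtype.ext ?_,
    fun e => ne _ _ _ _ nd (congrArg Subtype.val e), fun e => ne _ _ _ _ n2 (congrArg Subtype.val e),
    fun e => ne _ _ _ _ n3 ((d2_mul nd).symm.trans (congrArg Subtype.val e))⟩
  show d2 a b c d * d2 a c b d * (d2 a b c d * d2 a c b d) = 1
  rw [d2_mul nd, d2_sq n3]

theorem pull (nat : NatStmt) (B : Bs ψ t) (K : Kit ψ t) {S : Finset α} (h5 : 5 ≤ S.card)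
    (h2 : Fintype.card α < 2 * S.card) (h e : G) (q : Perm α) (hq : Acts ψ e q) (qq : q * q = 1)
    (hc : ∀ σ ∈ altOn S, Commute (h * ev ψ σ * h⁻¹) t)
    (he : ∀ σ ∈ altOn S, Commute (h * ev ψ σ * h⁻¹) e) :
    S.card + q.support.card ≤ Fintype.card α ∧
      ∀ σ ∈ altOn S, ∃ τ ∈ altOn q.supportᶜ, h * ev ψ σ * h⁻¹ = ev ψ τ := by
  have n5 : 5 ≤ Fintype.card α := by have := B.nine; omega
  have := simple_altOn h5
  have sg : ∀ σ : altOn S, sign (σ : Perm α) = 1 := fun σ => (H78.mem_altOn.1 σ.2).2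
  let θ : altOn S →* C1[t] := MonoidHom.mk'
    (fun σ => ⟨h * ev ψ σ * h⁻¹, mem_centralizer_singleton_iff.2 (hc σ σ.2).eq⟩) fun σ τ =>
      Subtype.ext (by
        show h * ev ψ ((σ : Perm α) * τ) * h⁻¹ = h * ev ψ σ * h⁻¹ * (h * ev ψ τ * h⁻¹)
        rw [ev_mul (sg σ) (sg τ)]; group)
  have hθ : ∀ σ, (θ σ : G) = h * ev ψ σ * h⁻¹ := fun _ => rfl
  have θt : ∀ σ, Commute (θ σ : G) t := fun σ => hc σ σ.2
  have θ1 : ∀ σ, (θ σ : G) = 1 → σ = 1 := fun σ e => Subtype.ext (ev_eq_one B.inj (sg σ) (by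
    rw [hθ] at e
    simpa [mul_assoc] using congrArg (fun x => h⁻¹ * x * h) e))
  have θ2 : ∀ σ, σ * σ = 1 → Is2 (θ σ : G) := fun σ e => ⟨1, by
    rw [pow_one, pow_two, ← Subgroup.coe_mul, ← map_mul, e, map_one, Subgroup.coe_one]⟩
  obtain ⟨π, hπ⟩ := K.hom
  let φ := π.comp θ
  have ac : ∀ σ, Acts ψ (θ σ : G) (φ σ) := fun σ => hπ _
  obtain ⟨p1, p2, s1, s2, s3, n1, n2, n3⟩ := exists_four h5
  have inj : Function.Injective φ := by
    rw [← MonoidHom.ker_eq_bot_iff]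
    refine (φ.normal_ker.eq_bot_or_eq_top).resolve_right fun k => ?_
    have k1 : ∀ σ, σ * σ = 1 → σ ≠ 1 → (θ σ : G) = t := fun σ s n => by
      have a := ac σ
      rw [show φ σ = 1 from (k ▸ mem_top σ : σ ∈ φ.ker)] at a
      exact (B.r2 _ a.KA (θt σ) (θ2 σ s)).resolve_left fun e => n (θ1 σ e)
    refine n3 (θ1 _ ?_)
    rw [map_mul, Subgroup.coe_mul, k1 p1 s1 n1, k1 p2 s2 n2, B.t2]
  obtain ⟨r1, r2, -⟩ := nat α S Finset.univ φ q inj h5 (by simpa using h2)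
    (fun σ => by rw [H78.symOn_univ]; trivial) (by rw [H78.symOn_univ]; trivial) qq fun σ => by
      have a1 := (ac σ).mul hq
      have a2 := hq.mul (ac σ)
      rw [← show (θ σ : G) * e = e * θ σ from (he σ σ.2).eq] at a2
      exact a1.uniq n5 B.inj a2
  rw [← Finset.compl_eq_univ_sdiff] at r1
  refine ⟨by simpa using r2, fun σ hσ => ?_⟩
  let M : Subgroup (altOn S) := ψ.range.comap (C1[t].subtype.comp θ)
  have nM : M.Normal := ⟨fun m hm g => by
    show ((θ (g * m * g⁻¹) : C1[t]) : G) ∈ ψ.range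
    rw [map_mul, map_mul, map_inv]
    exact NA_conj (B.cN _ (θt g)) hm⟩
  have ev2 : ∀ σ, σ * σ = 1 → (θ σ : G) = ev ψ (φ σ) ∨ (θ σ : G) = t * ev ψ (φ σ) := fun σ s =>
    K.ev2 _ _ (θt σ) (θ2 σ s) (ac σ) (H78.mem_altOn.1 (r1 σ)).2
  have top : M = ⊤ := nM.eq_bot_or_eq_top.resolve_left fun k => by
    have k1 : ∀ σ, (θ σ : G) ∈ ψ.range → σ = 1 := fun σ m => by
      have : σ ∈ M := m
      rwa [k, mem_bot] at this
    have k2 : ∀ σ, σ * σ = 1 → σ ≠ 1 → (θ σ : G) = t * ev ψ (φ σ) := fun σ s n =>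
      (ev2 σ s).resolve_left fun e => n (k1 σ (e ▸ ev_mem _))
    refine n3 (k1 _ ?_)
    rw [map_mul, Subgroup.coe_mul, k2 p1 s1 n1, k2 p2 s2 n2, KA_ev B.tK, mul_assoc, ← mul_assoc t,
      B.t2, one_mul]
    exact mul_mem (ev_mem _) (ev_mem _)
  have m : (θ ⟨σ, hσ⟩ : G) ∈ ψ.range := (top ▸ mem_top _ : (⟨σ, hσ⟩ : altOn S) ∈ M)
  obtain ⟨τ, sτ, eτ⟩ := mem_range_iff.1 m
  have a := ac ⟨σ, hσ⟩
  rw [← eτ] at a
  refine ⟨τ, ?_, eτ.symm⟩
  rw [(acts_ev sτ).uniq n5 B.inj a]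
  exact r1 _

theorem acts_tw (B : Bs ψ t) {w : Perm α} (sw : sign w = 1) : Acts ψ (t * ev ψ w) w := by
  simpa using (acts_of_KA B.tK).mul (acts_ev sw)

theorem comm_compl {q σ : Perm α} (h : σ ∈ altOn q.supportᶜ) : q * σ = σ * q :=
  (H78.commute_of_mem_symOn disjoint_compl_right (H78.mem_symOn_iff_support.2 subset_rfl) h.1).eq

theorem conj_comm {x y : G} (h : Commute x y) (g : G) : Commute (g * x * g⁻¹) (g * y * g⁻¹) := by
  simpa using h.map (MulAut.conj g)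

theorem nrm (nat : NatStmt) : NrmStmt.{u} := by
  intro G _ _ α _ _ ψ t B K _ g a b c d s
  have n9 := B.nine
  obtain ⟨ab, -, -, -, -, cd⟩ := nodup4.1 s.nd
  have sw := sign_d2 ab cd
  have sp := H94.AAE.supp_d2 s.nd
  have c4 := H94.AAE.card_d2 s.nd
  have ww := d2_sq s.nd
  set w := d2 a b c d with hw
  rw [← sp]
  have cS : w.supportᶜ.card = Fintype.card α - 4 := by rw [Finset.card_compl, c4]
  have gt : g * (t * ev ψ w) * g⁻¹ = t := by
    calc g * (t * ev ψ w) * g⁻¹ = g * t * g⁻¹ * (g * ev ψ w * g⁻¹) := by group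
      _ = t * (ev ψ w * ev ψ w) := by rw [s.gt, s.gw.eq, mul_inv_cancel_right, mul_assoc]
      _ = t := by rw [← ev_mul sw sw, ww, ev_one, mul_one]
  have c1 : ∀ σ : Perm α, Commute (ev ψ σ) t := fun σ => (KA_ev B.tK σ).symm
  obtain ⟨-, r⟩ := pull nat B K (S := w.supportᶜ) (by omega) (by omega) g (t * ev ψ w) w
    (acts_tw B sw) ww
    (fun σ hσ => by
      have := conj_comm (x := ev ψ σ) (y := t * ev ψ w)
        ((acts_tw B sw).comm (H78.mem_altOn.1 hσ).2 (comm_compl hσ)).symm g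
      rwa [gt] at this)
    (fun σ _ => by
      have := conj_comm (c1 σ) g
      rwa [s.gt] at this)
  refine mem_normalizer_fintype fun x hx => ?_
  obtain ⟨σ, hσ, rfl⟩ := mem_LS.1 hx
  obtain ⟨τ, hτ, e⟩ := r σ hσ
  exact mem_LS.2 ⟨τ, hτ, e.symm⟩

theorem sw0 (nat : NatStmt) : Sw0Stmt.{u} := by
  intro G _ _ α _ _ ψ t B K _ ⟨w, ww, sw, c4, hi⟩
  have n9 := B.nine
  have n5 : 5 ≤ Fintype.card α := by omega
  obtain ⟨g, hg⟩ := isConj_iff.1 hi
  obtain ⟨a, b, c, d, nd, hw⟩ := H94.AAE.exists_d2 ww c4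
  have c1 : ∀ σ : Perm α, Commute (ev ψ σ) t := fun σ => (KA_ev B.tK σ).symm
  have dt : Commute (t * ev ψ w) t := (Commute.refl t).mul_left (c1 w)
  have gi : g⁻¹ * (t * ev ψ w) * g⁻¹⁻¹ = t := by rw [← hg]; group
  set e := g⁻¹ * t * g⁻¹⁻¹ with he
  have ge : g * e * g⁻¹ = t := by rw [he]; group
  have et : Commute e t := by
    have := conj_comm dt.symm g⁻¹
    rwa [gi] at this
  have ee : e * e = 1 := by
    calc e * e = g⁻¹ * (t * t) * g := by rw [he]; group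
      _ = 1 := by rw [B.t2]; group
  have e2 : Is2 e := ⟨1, by rw [pow_one, pow_two, ee]⟩
  have ie : IsConj t e := isConj_iff.2 ⟨g⁻¹, rfl⟩
  obtain ⟨q, hq⟩ := K.act e et
  have qq : q * q = 1 := by
    have := hq.mul hq
    rw [ee] at this
    exact this.uniq n5 B.inj acts_one
  have cS : w.supportᶜ.card = Fintype.card α - 4 := by rw [Finset.card_compl, c4]
  obtain ⟨r, -⟩ := pull nat B K (S := w.supportᶜ) (by omega) (by omega) g⁻¹ e q hq qq
    (fun σ hσ => by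
      have := conj_comm (x := ev ψ σ) (y := t * ev ψ w)
        ((acts_tw B sw).comm (H78.mem_altOn.1 hσ).2 (comm_compl hσ)).symm g⁻¹
      rwa [gi] at this)
    (fun σ _ => conj_comm (c1 σ) g⁻¹)
  have q0 : q.support.card ≠ 0 := fun k => by
    rw [Equiv.Perm.card_support_eq_zero.1 k] at hq
    rcases B.r2 e hq.KA et e2 with k | k
    · exact B.t1 (by rw [← ge, k]; group)
    · rw [k, hg] at ge
      have := ev_eq_one B.inj sw (mul_left_cancel (ge.trans (mul_one t).symm))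
      rw [this] at c4
      simp at c4
  have q1 := Equiv.Perm.card_support_ne_one q
  have q2 : q.support.card ≠ 2 := fun k => by
    have cQ : q.supportᶜ.card = Fintype.card α - 2 := by rw [Finset.card_compl, k]
    obtain ⟨r', -⟩ := pull nat B K (S := q.supportᶜ) (by omega) (by omega) g (t * ev ψ w) w
      (acts_tw B sw) ww
      (fun σ hσ => by
        have := conj_comm (x := ev ψ σ) (y := e)
          (hq.comm (H78.mem_altOn.1 hσ).2 (comm_compl hσ)).symm g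
        rwa [ge] at this)
      (fun σ _ => by
        have := conj_comm (c1 σ) g
        rwa [hg] at this)
    omega
  have q3 : q.support.card ≠ 3 := fun k => by
    have := Equiv.Perm.two_dvd_card_support (show q ^ 2 = 1 by rw [pow_two, qq])
    omega
  have q4 : q.support.card = 4 := by omega
  obtain ⟨x, sx, hx⟩ := K.typ w q ww qq (by omega)
  have sq : sign q = 1 := by rw [← hx, sign_conj', sw]
  have eq : e = t * ev ψ q := (K.ev2 e q et e2 hq sq).resolve_left fun k => K.nl q (k ▸ ie)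
  refine ⟨g * ev ψ x, a, b, c, d, nd, ?_, ?_⟩
  · rw [← hw, ← hg, mul_assoc g, (c1 x).eq]; group
  · rw [← hw]
    have k1 : ev ψ x * ev ψ w * (ev ψ x)⁻¹ = t * e := by
      rw [← ev_conj sx sw, hx, eq, ← mul_assoc, B.t2, one_mul]
    have k2 : g * (t * e) * g⁻¹ = ev ψ w := by
      calc g * (t * e) * g⁻¹ = g * t * g⁻¹ * (g * e * g⁻¹) := by group
        _ = t * (ev ψ w * t) := by rw [hg, ge, mul_assoc]
        _ = ev ψ w := by rw [(c1 w).eq, ← mul_assoc, B.t2, one_mul]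
    rw [← k1] at k2
    show g * ev ψ x * ev ψ w = ev ψ w * (g * ev ψ x)
    conv_rhs => rw [← k2]
    group

end Cfsg.Agent.H2An
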