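import Cfsg.Agent.H2.Systems
import Cfsg.Agent.S0050

/-!
Carter subgroups of finite solvable groups: existence, conjugacy, images, and the relation with
system normalizers.
-/

set_option autoImplicit false
open Pointwise

namespace Cfsg.Agent.H2

universe u

section Basic

variable {G : Type*} [Group G]

theorem index_dvd_index_map_mul_card_ker [Finite G] {Q : Type*} [Group Q] {f : G →* Q}
    (hf : Function.Surjective f) (H : Subgroup G) :
    H.index ∣ (H.map f).index * Nat.card f.ker := by
  rw [Subgroup.index_map, MonoidHom.range_eq_top.mpr hf, Subgroup.index_top, mul_one,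
    ← Subgroup.relIndex_mul_index (le_sup_left : H ≤ H ⊔ f.ker), mul_comm]
  apply Nat.mul_dvd_mul_left
  have h1 := card_sup_normal_dvd H f.ker
  rw [← (H.subgroupOf (H ⊔ f.ker)).card_mul_index, card_subgroupOf_of_le le_sup_left] at h1
  exact Nat.dvd_of_mul_dvd_mul_left Nat.card_pos h1

theorem isCarter_conj_smul {C : Subgroup G} (hC : IsCarterSubgroup C) (g : G) :
    IsCarterSubgroup (MulAut.conj g • C) :=
  ⟨isNilpotent_conj_smul g hC.1, by rw [normalizer_conj_smul, hC.2]⟩

theorem isCarter_subgroupOf {C L : Subgroup G} (hC : IsCarterSubgroup C) (hL : C ≤ L) :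
    IsCarterSubgroup (C.subgroupOf L) :=
  ⟨isNilpotent_subgroupOf L hC.1, by rw [← Subgroup.subgroupOf_normalizer_eq hL, hC.2]⟩

/-- A Carter subgroup is a maximal nilpotent subgroup. -/
theorem IsCarterSubgroup.eq_of_le' {C L : Subgroup G} (hC : IsCarterSubgroup C) (hL : C ≤ L)
    (hLn : Group.IsNilpotent L) : C = L :=
  eq_of_normalizer_inf_le_of_isNilpotent hL hLn (by rw [hC.2]; exact inf_le_left)

/-- In a `p`-by-nilpotent group the normaliser of a Hall `p'`-subgroup is a Carter subgroup
supplementing the normal `p`-subgroup. -/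
theorem isCarter_normalizer_isPiHall [Finite G] [Group.IsSolvable G] {Q : Type*} [Group Q]
    [Group.IsNilpotent Q] {f : G →* Q} (hf : Function.Surjective f) {p : ℕ} (hp : p.Prime)
    (hker : IsPGroup p f.ker) {H : Subgroup G} (hH : IsPiHall {q | q ≠ p} H) :
    IsCarterSubgroup (Subgroup.normalizer (H : Set G)) ∧
      Subgroup.normalizer (H : Set G) ⊔ f.ker = ⊤ := by
  have : Finite Q := Finite.of_surjective f hf
  have : Fact p.Prime := ⟨hp⟩
  set C := Subgroup.normalizer (H : Set G) with hC
  have hHC : IsPiHall {q | q ≠ p} (H.subgroupOf C) :=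
    isPiHall_subgroupOf_of_le hH Subgroup.le_normalizer
  refine ⟨⟨?_, le_antisymm (normalizer_le_normalizer_of_isPiHall Subgroup.le_normalizer hHC le_rfl)
    Subgroup.le_normalizer⟩, ?_⟩
  · have h1 : IsPGroup p (C ⧸ H.subgroupOf C) := by
      apply isPGroup_of_isPiNum
      rw [← compl_ne_eq_singleton]
      exact (isPiHall_iff.mp hHC).2
    have := h1.isNilpotent
    refine isNilpotent_of_ker_inf_ker (f.comp C.subtype) (QuotientGroup.mk' (H.subgroupOf C)) ?_
    rw [QuotientGroup.ker_mk', ← MonoidHom.comap_ker]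
    refine (Subgroup.disjoint_of_coprime_natCard (IsPiNum.coprime (π := {p}) ?_ ?_)).eq_bot
    · exact (isPiNum_card_of_isPGroup hp (Set.mem_singleton p) hker).of_dvd (card_subgroupOf_dvd _ _)
    · rw [← compl_ne_eq_singleton, compl_compl]
      exact hHC.1
  · have h1 : (H.map f).Normal := isPiHall_normal_of_isNilpotent (isPiHall_map hf hH)
    have h2 : (H ⊔ f.ker).Normal := by
      rw [← Subgroup.comap_map_eq]
      infer_instance
    have h3 := S0050.result (H ⊔ f.ker) inferInstance H le_sup_left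
      ((isPiHall_coprime hH).coprime_dvd_right (Subgroup.relIndex_dvd_index_of_le le_sup_left))
    rw [eq_top_iff, ← h3]
    exact sup_le (sup_le_sup_right Subgroup.le_normalizer _) le_sup_left

theorem isCarter_map_of_conj {Q : Type*} [Group Q] {f : G →* Q} (hf : Function.Surjective f)
    {C : Subgroup G} (hC : IsCarterSubgroup C)
    (h : C ⊔ f.ker ≠ ⊤ → ∀ A B : Subgroup ↥(C ⊔ f.ker), IsCarterSubgroup A → IsCarterSubgroup B →
      ∃ g : ↥(C ⊔ f.ker), MulAut.conj g • A = B) : IsCarterSubgroup (C.map f) := by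
  refine ⟨isNilpotent_map f hC.1, le_antisymm ?_ Subgroup.le_normalizer⟩
  have hm : (C ⊔ f.ker).map f = C.map f := by
    rw [Subgroup.map_sup, (Subgroup.map_eq_bot_iff _).mpr le_rfl, sup_bot_eq]
  by_cases hL : C ⊔ f.ker = ⊤
  · rw [← hm, hL, Subgroup.map_top_of_surjective f hf]
    exact le_top
  intro y hy
  obtain ⟨x, rfl⟩ := hf y
  have h1 : MulAut.conj x • C ≤ C ⊔ f.ker := by
    rw [← Subgroup.map_le_map_iff, map_conj_smul, conj_smul_eq_iff_mem_normalizer.mpr hy]
  obtain ⟨l, hl⟩ := h hL _ _ (isCarter_subgroupOf hC le_sup_left)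
    (isCarter_subgroupOf (isCarter_conj_smul hC x) h1)
  have h2 := conj_smul_eq_of_subgroupOf le_sup_left h1 l hl
  have h3 : (l : G)⁻¹ * x ∈ C := by
    apply hC.2.le
    rw [← conj_smul_eq_iff_mem_normalizer, ← conj_smul_conj_smul, ← h2,
      conj_smul_conj_smul, inv_mul_cancel, map_one, one_smul]
  rw [← hm]
  refine ⟨x, ?_, rfl⟩
  have : x = l * ((l : G)⁻¹ * x) := by simp
  rw [this]
  exact (C ⊔ f.ker).mul_mem l.2 (Subgroup.mem_sup_left h3)

end Basic

private theorem carter_conj_aux (n : ℕ) : ∀ (G : Type u) [Group G] [Finite G]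
    [Group.IsSolvable G], Nat.card G = n → ∀ C D : Subgroup G, IsCarterSubgroup C →
    IsCarterSubgroup D → ∃ g : G, MulAut.conj g • C = D := by
  induction n using Nat.strongRecOn with | ind n ih => ?_
  rintro G _ _ _ rfl C D hC hD
  rcases subsingleton_or_nontrivial G with hs | hs
  · exact ⟨1, Subsingleton.elim _ _⟩
  obtain ⟨N, hNn, hN0, -, p, hp, hN⟩ := exists_abelian_pgroup_normal (G := G)
  have hf := QuotientGroup.mk'_surjective N
  have hsub : ∀ L : Subgroup G, L ≠ ⊤ → ∀ A B : Subgroup L, IsCarterSubgroup A →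
      IsCarterSubgroup B → ∃ g, MulAut.conj g • A = B :=
    fun L hL => ih _ (card_lt_of_ne_top hL) L rfl
  have hC' := isCarter_map_of_conj hf hC (hsub _)
  have hD' := isCarter_map_of_conj hf hD (hsub _)
  obtain ⟨g, hg⟩ := ih _ (card_quotient_lt_of_ne_bot hN0) (G ⧸ N) rfl _ _ hC' hD'
  obtain ⟨g, rfl⟩ := hf g
  rw [← map_conj_smul] at hg
  set C' := MulAut.conj g • C with hC'def
  have hC'c : IsCarterSubgroup C' := isCarter_conj_smul hC g
  suffices h : ∃ x : G, MulAut.conj x • C' = D by
    obtain ⟨x, hx⟩ := h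
    exact ⟨x * g, by rw [← conj_smul_conj_smul]; exact hx⟩
  have hsup : C' ⊔ N = D ⊔ N := by
    have := congrArg (Subgroup.comap (QuotientGroup.mk' N)) hg
    rwa [Subgroup.comap_map_eq, Subgroup.comap_map_eq, QuotientGroup.ker_mk'] at this
  by_cases hL : D ⊔ N = ⊤
  · have htop : D.map (QuotientGroup.mk' N) = ⊤ := by
      rw [← Subgroup.map_top_of_surjective _ hf, ← hL, Subgroup.map_sup,
        (Subgroup.map_eq_bot_iff N).mpr (QuotientGroup.ker_mk' N).ge, sup_bot_eq]
    have hnil : Group.IsNilpotent (G ⧸ N) := Group.isNilpotent_top.mp (htop ▸ hD'.1)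
    have key : ∀ X : Subgroup G, IsCarterSubgroup X → X.map (QuotientGroup.mk' N) = ⊤ →
        ∃ H : Subgroup G, IsPiHall {q | q ≠ p} H ∧ X = Subgroup.normalizer (H : Set G) := by
      intro X hX hXt
      obtain ⟨H, hH⟩ := exists_isPiHall {q | q ≠ p} X
      have := hX.1
      have hHn : H.Normal := isPiHall_normal_of_isNilpotent hH
      have hH' : IsPiHall {q | q ≠ p} (H.map X.subtype) := by
        rw [isPiHall_iff] at hH ⊢
        refine ⟨hH.1.of_dvd (H.card_map_dvd _), ?_⟩
        rw [Subgroup.index_map_subtype]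
        refine hH.2.mul (IsPiNum.of_dvd ?_ (index_dvd_index_map_mul_card_ker hf X))
        rw [hXt, Subgroup.index_top, one_mul, QuotientGroup.ker_mk']
        exact isPiNum_card_of_isPGroup hp (by simp) hN
      refine ⟨_, hH', IsCarterSubgroup.eq_of_le' hX ?_ (isCarter_normalizer_isPiHall hf hp
        (by rwa [QuotientGroup.ker_mk']) hH').1.1⟩
      have h1 := H.le_normalizer_map X.subtype
      rwa [Subgroup.normalizer_eq_top, ← MonoidHom.range_eq_map, Subgroup.range_subtype] at h1
    obtain ⟨H₁, hH₁, h₁⟩ := key C' hC'c (hg ▸ htop)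
    obtain ⟨H₂, hH₂, h₂⟩ := key D hD htop
    obtain ⟨x, hx⟩ := isPiHall_conj hH₁ hH₂
    exact ⟨x, by rw [h₁, h₂, ← normalizer_conj_smul, hx]⟩
  · have h1 : C' ≤ D ⊔ N := hsup ▸ le_sup_left
    obtain ⟨x, hx⟩ := hsub _ hL _ _ (isCarter_subgroupOf hC'c h1)
      (isCarter_subgroupOf hD le_sup_left)
    exact ⟨x, conj_smul_eq_of_subgroupOf h1 le_sup_left x hx⟩

private theorem carter_exists_aux (n : ℕ) : ∀ (G : Type u) [Group G] [Finite G]
    [Group.IsSolvable G], Nat.card G = n → ∀ K : Nat.Primes → Subgroup G, IsComplementSystem K →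
    ∃ C : Subgroup G, IsCarterSubgroup C ∧ systemNormalizer K ≤ C ∧
      ∀ q : Nat.Primes, IsPiNum {(q : ℕ)} ((K q).relIndex C) := by
  induction n using Nat.strongRecOn with | ind n ih => ?_
  rintro G _ _ _ rfl K hK
  rcases subsingleton_or_nontrivial G with hs | hs
  · refine ⟨⊤, ⟨inferInstance, Subsingleton.elim _ _⟩, le_top, fun q => ?_⟩
    rw [Subgroup.relIndex_eq_one.mpr (Subsingleton.elim _ _).le]
    exact isPiNum_one _
  obtain ⟨N, hNn, hN0, -, p, hp, hN⟩ := exists_abelian_pgroup_normal (G := G)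
  have hf := QuotientGroup.mk'_surjective N
  set f := QuotientGroup.mk' N with hfdef
  obtain ⟨L₀, hL₀, hDL₀, hKL₀⟩ := ih _ (card_quotient_lt_of_ne_bot hN0) (G ⧸ N) rfl _
    (isComplementSystem_map hf hK)
  have := hL₀.1
  set L := L₀.comap f with hL
  let f' : L →* L₀ := f.subgroupComap L₀
  have hf' : Function.Surjective f' := f.subgroupComap_surjective_of_surjective L₀ hf
  have hker : f'.ker = N.subgroupOf L := by
    ext x
    rw [MonoidHom.mem_ker, Subtype.ext_iff, Subgroup.mem_subgroupOf, ← QuotientGroup.eq_one_iff]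
    rfl
  have hkerp : IsPGroup p f'.ker := hker ▸ hN.comap_subtype
  have hmap : ∀ q, ((K q).subgroupOf L).map f' = ((K q).map f).subgroupOf L₀ := by
    intro q
    ext y
    constructor
    · rintro ⟨x, hx, rfl⟩
      exact ⟨x, hx, rfl⟩
    · rintro ⟨x, hx, hxy⟩
      have hxL : x ∈ L := by
        rw [hL, Subgroup.mem_comap, hxy]
        exact y.2
      exact ⟨⟨x, hxL⟩, hx, Subtype.ext hxy⟩
  have hKq := isComplementSystem_iff.mp hK
  let p' : Nat.Primes := ⟨p, hp⟩
  have hHall : ∀ q : Nat.Primes, IsPiHall {r | r ≠ q} ((K q).subgroupOf L) := by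
    intro q
    rw [isPiHall_iff, compl_ne_eq_singleton]
    refine ⟨IsPiNum.of_dvd (hKq q).1 (card_subgroupOf_dvd _ _), ?_⟩
    by_cases hq : (q : ℕ) = p
    · refine IsPiNum.of_dvd ?_ (index_dvd_index_map_mul_card_ker hf' _)
      rw [hmap]
      exact (hKL₀ q).mul (isPiNum_card_of_isPGroup hp hq.symm hkerp)
    · have h1 : N ≤ K q :=
        normal_le_of_isPiHall (hKq q) (isPiNum_card_of_isPGroup hp (Ne.symm hq) hN)
      rw [← Subgroup.index_map_eq _ hf' (hker ▸ Subgroup.subgroupOf_mono L h1), hmap]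
      exact hKL₀ q
  obtain ⟨hC', hsup⟩ := isCarter_normalizer_isPiHall hf' hp hkerp (hHall p')
  set C' := Subgroup.normalizer (((K p').subgroupOf L : Subgroup L) : Set L) with hC'def
  have hCL : C'.map L.subtype ≤ L := Subgroup.map_subtype_le _
  have hCC' : (C'.map L.subtype).subgroupOf L = C' :=
    Subgroup.comap_map_eq_self_of_injective L.subtype_injective _
  refine ⟨C'.map L.subtype, ⟨isNilpotent_map _ hC'.1, le_antisymm ?_ Subgroup.le_normalizer⟩,
    ?_, fun q => ?_⟩
  · intro x hx
    have h1 : (C'.map L.subtype).map f = L₀ := by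
      have h2 : C'.map f' = ⊤ := by
        rw [← Subgroup.map_top_of_surjective _ hf', ← hsup, Subgroup.map_sup,
          (Subgroup.map_eq_bot_iff f'.ker).mpr le_rfl, sup_bot_eq]
      rw [Subgroup.map_map, show f.comp L.subtype = L₀.subtype.comp f' from rfl,
        ← Subgroup.map_map, h2, ← MonoidHom.range_eq_map, Subgroup.range_subtype]
    have h3 : x ∈ L := by
      have h4 := Subgroup.le_normalizer_map f ⟨x, hx, rfl⟩
      rwa [h1, hL₀.2] at h4
    have h5 : (⟨x, h3⟩ : L) ∈ Subgroup.normalizer (C' : Set L) := by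
      rw [← hCC', ← Subgroup.subgroupOf_normalizer_eq hCL]
      exact hx
    rw [hC'.2] at h5
    exact ⟨_, h5, rfl⟩
  · intro x hx
    have h3 : x ∈ L := by
      apply hDL₀
      rw [systemNormalizer_map hf hK]
      exact ⟨x, hx, rfl⟩
    refine ⟨⟨x, h3⟩, ?_, rfl⟩
    exact Subgroup.le_normalizer_comap L.subtype (systemNormalizer_le K p' hx)
  · rw [← Subgroup.relIndex_subgroupOf hCL, hCC', ← compl_ne_eq_singleton]
    refine (isPiHall_iff.mp (isPiHall_subgroupOf_of_le_normalizer (hHall q) ?_)).2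
    by_cases hq : (q : ℕ) = p
    · rw [show q = p' from Subtype.ext hq]
    · have h1 : N ≤ K q :=
        normal_le_of_isPiHall (hKq q) (isPiNum_card_of_isPGroup hp (Ne.symm hq) hN)
      have h2 : (((K q).subgroupOf L).map f').Normal :=
        isPiHall_normal_of_isNilpotent (isPiHall_map hf' (hHall q))
      have h3 : ((K q).subgroupOf L).Normal := by
        rw [← Subgroup.comap_map_eq_self (f := f') (H := (K q).subgroupOf L)
          (hker ▸ Subgroup.subgroupOf_mono L h1)]
        infer_instance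
      exact Subgroup.le_normalizer_of_normal

section Main

variable {G : Type u} [Group G] [Finite G] [Group.IsSolvable G]

/-- Carter subgroups of a finite solvable group are conjugate. -/
theorem isCarter_conj {C D : Subgroup G} (hC : IsCarterSubgroup C) (hD : IsCarterSubgroup D) :
    ∃ g : G, MulAut.conj g • C = D :=
  carter_conj_aux _ G rfl C D hC hD

/-- Every complement system reduces into a Carter subgroup containing its normalizer. -/
theorem exists_isCarter_ge_systemNormalizer {K : Nat.Primes → Subgroup G}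
    (hK : IsComplementSystem K) : ∃ C : Subgroup G, IsCarterSubgroup C ∧ systemNormalizer K ≤ C ∧
      ∀ q : Nat.Primes, IsPiNum {(q : ℕ)} ((K q).relIndex C) :=
  carter_exists_aux _ G rfl K hK

theorem exists_isCarter (G : Type u) [Group G] [Finite G] [Group.IsSolvable G] :
    ∃ C : Subgroup G, IsCarterSubgroup C := by
  obtain ⟨K, hK⟩ := exists_isComplementSystem G
  obtain ⟨C, hC, -⟩ := exists_isCarter_ge_systemNormalizer hK
  exact ⟨C, hC⟩

/-- The image of a Carter subgroup under a surjection is a Carter subgroup. -/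
theorem isCarter_map {Q : Type*} [Group Q] {f : G →* Q} (hf : Function.Surjective f)
    {C : Subgroup G} (hC : IsCarterSubgroup C) : IsCarterSubgroup (C.map f) :=
  isCarter_map_of_conj hf hC fun _ _ _ hA hB => isCarter_conj hA hB

/-- A subgroup containing a Carter subgroup is self-normalising. -/
theorem normalizer_eq_of_isCarter_le {C L : Subgroup G} (hC : IsCarterSubgroup C) (hL : C ≤ L) :
    Subgroup.normalizer (L : Set G) = L := by
  refine le_antisymm (fun x hx => ?_) Subgroup.le_normalizer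
  have h1 := conj_smul_le_of_mem_normalizer hL hx
  obtain ⟨l, hl⟩ := isCarter_conj (isCarter_subgroupOf hC hL)
    (isCarter_subgroupOf (isCarter_conj_smul hC x) h1)
  have h2 := conj_smul_eq_of_subgroupOf hL h1 l hl
  have h3 : (l : G)⁻¹ * x ∈ C := by
    rw [← hC.2, ← conj_smul_eq_iff_mem_normalizer, ← conj_smul_conj_smul, ← h2,
      conj_smul_conj_smul, inv_mul_cancel, map_one, one_smul]
  have : x = l * ((l : G)⁻¹ * x) := by simp
  rw [this]
  exact L.mul_mem l.2 (hL h3)

end Main

end Cfsg.Agent.H2
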