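import Cfsg.Agent.H41.S6Kit2

/-! An involution with centralizer `2 × Sp₆(2)`: the element with translation `a₁₂`. -/

set_option autoImplicit false

namespace Cfsg.Agent.H2S6

open Cfsg Subgroup
open Cfsg.Agent.H44 Cfsg.Agent.H55.Sp6 Cfsg.Agent.H2.L3E Cfsg.Agent.H41.S6

universe u

variable {G : Type u} [Group G] {ι : Sp →* G} {t : G}

/-- the elements of `E3` by codes -/
noncomputable def ee (ι : Sp →* G) (t : G) (i : Bool) (c : ℕ) : G :=
  (bif i then t else 1) * ι (ac c)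

theorem ee_f (c : ℕ) : ee ι t false c = ι (ac c) := one_mul _

theorem ee_t (c : ℕ) : ee ι t true c = t * ι (ac c) := rfl

theorem A_le {S : Subgroup Sp} (h1 : ac 1 ∈ S) (h2 : ac 2 ∈ S) (h4 : ac 4 ∈ S) (hL : Lam ≤ S) :
    A ≤ S := by
  intro a ha
  obtain ⟨c, hc, rfl⟩ := A_par.mp ha
  have key : ∀ c < 64, ∃ x ∈ [0, 1], ∃ y ∈ [0, 2], ∃ z ∈ [0, 4], ∃ w < 64, w % 8 = 0 ∧
      c = x ^^^ y ^^^ z ^^^ w ∧ x < 64 ∧ y < 64 ∧ z < 64 := by decide +kernel
  obtain ⟨x, hx, y, hy, z, hz, w, hw, w8, rfl, x64, y64, z64⟩ := key c hc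
  rw [← ac_mul (xor_lt (xor_lt x64 y64) z64) hw, ← ac_mul (xor_lt x64 y64) z64, ← ac_mul x64 y64]
  have h0 : ac 0 ∈ S := ac_zero ▸ S.one_mem
  refine S.mul_mem (S.mul_mem (S.mul_mem ?_ ?_) ?_) (hL ((ac_mem_Lam hw).mpr w8))
  · simp only [List.mem_cons, List.not_mem_nil, or_false] at hx
    rcases hx with rfl | rfl
    exacts [h0, h1]
  · simp only [List.mem_cons, List.not_mem_nil, or_false] at hy
    rcases hy with rfl | rfl
    exacts [h0, h2]
  · simp only [List.mem_cons, List.not_mem_nil, or_false] at hz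
    rcases hz with rfl | rfl
    exacts [h0, h4]

/-- the word of the element of order three -/
def tw : List ℕ := [1, 16, 17, 2, 8, 10]

theorem tau_eq : r12 * r21 = ev g tw := (ev_append g [1, 16, 17] [2, 8, 10]).symm

theorem comm_wd {l l' : List ℕ}
    (h : ((l ++ l').all (· < 64) && ((l' ++ l).all (· < 64) &&
      cols (wd (l ++ l')) == cols (wd (l' ++ l)))) = true) : ev g l * ev g l' = ev g l' * ev g l := by
  rw [← ev_append, ← ev_append]; exact weq h

theorem rho_comm {c : ℕ} (hc : c < 64) (h : ac c * rho = rho * ac c) : c &&& 52 = 0 := by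
  have key : ∀ c < 64, cols (wd (aw c ++ [4, 32])) = cols (wd ([4, 32] ++ aw c)) →
      c &&& 52 = 0 := by decide +kernel
  have l2 : ∀ a ∈ [4, 32], a < 64 := by decide
  refine key c hc ((ev_eq_iff (append_lt (aw_lt hc) l2) (append_lt l2 (aw_lt hc))).mp ?_)
  rw [ev_append, ev_append]; exact h

theorem comm_rho {c : ℕ} (hc : c < 64) (h : c &&& 52 = 0) : ac c * rho = rho * ac c := by
  have key : ∀ c < 64, c &&& 52 = 0 →
      cols (wd (aw c ++ [4, 32])) = cols (wd ([4, 32] ++ aw c)) := by decide +kernel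
  have l2 : ∀ a ∈ [4, 32], a < 64 := by decide
  have := (ev_eq_iff (append_lt (aw_lt hc) l2) (append_lt l2 (aw_lt hc))).mpr (key c hc h)
  rwa [ev_append, ev_append] at this

section H
variable (h : Hy ι t)
include h

theorem ee_mul (i j : Bool) {c d : ℕ} (hc : c < 64) (hd : d < 64) :
    ee ι t i c * ee ι t j d = ee ι t (xor i j) (c ^^^ d) := by
  have e : ι (ac c) * t = t * ι (ac c) := (h.ct _).symm
  cases i <;> cases j <;>
    simp only [ee_f, ee_t, Bool.xor_false, Bool.xor_true, Bool.not_false, Bool.not_true,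
      ← ac_mul hc hd, map_mul]
  · rw [← mul_assoc, e, mul_assoc]
  · rw [mul_assoc]
  · rw [mul_assoc, ← mul_assoc (ι (ac c)), e, mul_assoc, h.ttx]

theorem ee_inj {i j : Bool} {c d : ℕ} (hc : c < 64) (hd : d < 64)
    (e : ee ι t i c = ee ι t j d) : i = j ∧ c = d := by
  cases i <;> cases j <;> simp only [ee_f, ee_t] at e
  · exact ⟨rfl, ac_inj hc hd (h.inj e)⟩
  · exact absurd e (h.ne_t _ _)
  · exact absurd e.symm (h.ne_t _ _)
  · exact ⟨rfl, ac_inj hc hd (h.inj (mul_left_cancel e))⟩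

theorem ee_ex {x : G} (hx : x ∈ E3 ι t) : ∃ i, ∃ c < 64, x = ee ι t i c := by
  obtain ⟨a, ha, e⟩ := h.mem_E3.mp hx
  obtain ⟨c, hc, rfl⟩ := A_par.mp ha
  rcases e with e | e
  · exact ⟨false, c, hc, by rw [ee_f, e]⟩
  · exact ⟨true, c, hc, e⟩

theorem ee_mem (i : Bool) {c : ℕ} (hc : c < 64) : ee ι t i c ∈ E3 ι t := by
  refine h.mem_E3.mpr ⟨ac c, ac_mem hc, ?_⟩
  cases i
  · exact Or.inl (ee_f c)
  · exact Or.inr rfl

theorem ee_conj {l : List ℕ}
    (hl : (l.all (· < 64) && (wd l 1 < 8 && (wd l 2 < 8 && wd l 4 < 8))) = true) (i : Bool)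
    {c : ℕ} (hc : c < 64) :
    ι (ev g l) * ee ι t i c * (ι (ev g l))⁻¹ = ee ι t i (cjc (wd l) c) := by
  cases i
  · rw [ee_f, ee_f, ← (conj_ac_wd hl hc).2, map_mul, map_mul, map_inv]
  · rw [ee_t, ee_t, h.conj_tl, (conj_ac_wd hl hc).2]

variable [Finite G]

theorem same {n m : G} (hn : n ∈ Nh ι t) (hm : m ∈ Nh ι t) (e : n * t * n⁻¹ = m * t * m⁻¹) {x : G}
    (hx : x ∈ E3 ι t) : n * x * n⁻¹ = m * x * m⁻¹ := by
  have := h.E3_comm (h.Nh_uniq hn hm e) hx
  calc n * x * n⁻¹ = m * (m⁻¹ * n * x) * n⁻¹ := by group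
    _ = _ := by rw [this]; group

/-- an element with translation `a₁₂` centralizes `A` -/
theorem cenA {s : G} (hs : s ∈ Nh ι t) (tr : s * t * s⁻¹ = t * ι a12) :
    ∀ a ∈ A, s * ι a = ι a * s := by
  have hL := (mem_Nh.mp hs).2
  have hN := mem_NE.mp (mem_Nh.mp hs).1
  have tr' : s * t * s⁻¹ = ee ι t true 8 := by rw [tr, a12_ac]; rfl
  have t0 : t = ee ι t true 0 := by rw [ee_t, ac_zero, map_one, mul_one]
  have fL : ∀ {n : G}, n ∈ Nh ι t → ∀ {c}, c < 64 → c % 8 = 0 →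
      n * ee ι t false c * n⁻¹ = ee ι t false c := fun {n} hn {c} hc c8 => by
    rw [ee_f, (mem_Nh.mp hn).2 _ ((ac_mem_Lam hc).mpr c8), mul_inv_cancel_right]
  have cj : ∀ {l : List ℕ}, (l.all (· < 64) && (wd l 1 < 8 && (wd l 2 < 8 && wd l 4 < 8))) = true →
      ∀ i {c : ℕ}, c < 64 → ∀ j {d : ℕ}, d < 64 → s * ee ι t i c * s⁻¹ = ee ι t j d →
      (ι (ev g l) * s * (ι (ev g l))⁻¹) * ee ι t i (cjc (wd l) c) *
        (ι (ev g l) * s * (ι (ev g l))⁻¹)⁻¹ = ee ι t j (cjc (wd l) d) :=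
    fun {l} hl i {c} hc j {d} hd e => by
      rw [← ee_conj h hl i hc, ← ee_conj h hl j hd, ← e]; group
  have trc : ∀ {l : List ℕ}, (l.all (· < 64) && (wd l 1 < 8 && (wd l 2 < 8 && wd l 4 < 8))) = true →
      (ι (ev g l) * s * (ι (ev g l))⁻¹) * t * (ι (ev g l) * s * (ι (ev g l))⁻¹)⁻¹ =
        ee ι t true (cjc (wd l) 8) := fun {l} hl => by
    have := cj hl true (c := 0) (by norm_num) true (d := 8) (by norm_num) (by rw [← t0, tr'])
    rwa [show cjc (wd l) 0 = 0 from rfl, ← t0] at this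
  have eqv : ∀ {l : List ℕ}, (l.all (· < 64) && (wd l 1 < 8 && (wd l 2 < 8 && wd l 4 < 8))) = true →
      cjc (wd l) 8 = 8 → ∀ i {c : ℕ}, c < 64 → ∀ j {d : ℕ}, d < 64 →
      s * ee ι t i c * s⁻¹ = ee ι t j d →
      s * ee ι t i (cjc (wd l) c) * s⁻¹ = ee ι t j (cjc (wd l) d) :=
    fun {l} hl h8 i {c} hc j {d} hd e => by
      rw [← cj hl i hc j hd e]
      exact same h hs (h.P3_Nh (ev_mem_P3 hl) hs) (by rw [trc hl, h8, tr'])
        (ee_mem h i (conj_ac_wd hl hc).1)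
  have sq : ∀ x ∈ E3 ι t, s * (s * x * s⁻¹) * s⁻¹ = x := fun x hx => by
    have := same h (mul_mem hs hs) (one_mem _) (by
      calc s * s * t * (s * s)⁻¹ = s * (s * t * s⁻¹) * s⁻¹ := by group
        _ = s * (t * ι a12) * s⁻¹ := by rw [tr]
        _ = (s * t * s⁻¹) * (s * ι a12 * s⁻¹) := by group
        _ = _ := by
          rw [tr, hL _ a12_Lam, mul_inv_cancel_right, mul_assoc, ← map_mul,
            A_sq (Lam_le_A a12_Lam)]
          simp) hx
    rw [one_mul, inv_one, mul_one] at this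
    calc _ = s * s * x * (s * s)⁻¹ := by group
      _ = x := this
  have mul : ∀ {n : G} {i j i' j' : Bool} {c d c' d' : ℕ}, c < 64 → d < 64 → c' < 64 → d' < 64 →
      n * ee ι t i c * n⁻¹ = ee ι t i' c' → n * ee ι t j d * n⁻¹ = ee ι t j' d' →
      n * ee ι t (xor i j) (c ^^^ d) * n⁻¹ = ee ι t (xor i' j') (c' ^^^ d') :=
    fun {n i j i' j' c d c' d'} hc hd hc' hd' e1 e2 => by
      rw [← ee_mul h i j hc hd, ← ee_mul h i' j' hc' hd', ← e1, ← e2]; group
  obtain ⟨i, c, hc, e4⟩ := ee_ex h (hN _ (ee_mem h false (c := 4) (by norm_num)))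
  have k1 := eqv (l := [1, 16, 17]) (by decide) (by decide) false (by norm_num) i hc e4
  have k2 := eqv (l := [2, 8, 10]) (by decide) (by decide) false (by norm_num) i hc e4
  rw [show cjc (wd [1, 16, 17]) 4 = 4 by decide, e4] at k1
  rw [show cjc (wd [2, 8, 10]) 4 = 4 by decide, e4] at k2
  have key : ∀ c < 64, c = cjc (wd [1, 16, 17]) c → c = cjc (wd [2, 8, 10]) c →
      c = 0 ∨ c = 8 ∨ c = 4 ∨ c = 12 := by decide +kernel
  have hc4 := key c hc (ee_inj h hc (conj_ac_wd (by decide) hc).1 k1).2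
    (ee_inj h hc (conj_ac_wd (by decide) hc).1 k2).2
  have f8 := fL hs (c := 8) (by norm_num) rfl
  have f0 := fL hs (c := 0) (by norm_num) rfl
  have ft : s * ee ι t true 0 * s⁻¹ = ee ι t true 8 := by rw [← t0, tr']
  have s4 := sq _ (ee_mem h false (c := 4) (by norm_num))
  rw [e4] at s4
  have n0 : (0 : ℕ) < 64 := by norm_num
  have n4 : (4 : ℕ) < 64 := by norm_num
  have n8 : (8 : ℕ) < 64 := by norm_num
  have e5 : i = false ∧ (c = 4 ∨ c = 12) := by
    cases i
    · refine ⟨rfl, ?_⟩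
      rcases hc4 with rfl | rfl | hc4
      · exact absurd (ee_inj h n0 n4 (f0.symm.trans s4)).2 (by decide)
      · exact absurd (ee_inj h n8 n4 (f8.symm.trans s4)).2 (by decide)
      · exact hc4
    · exfalso
      rcases hc4 with rfl | rfl | rfl | rfl
      · exact absurd (ee_inj h n8 n4 (ft.symm.trans s4)).1 (by decide)
      · exact absurd (ee_inj h (by decide) n4 ((mul n0 n8 n8 n8 ft f8).symm.trans s4)).1 (by decide)
      · exact absurd (ee_inj h (by decide) n4 ((mul n0 n4 n8 n4 ft e4).symm.trans s4)).2 (by decide)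
      · exact absurd (ee_inj h (by decide) n4 ((mul (by decide) n8 (by decide) n8
          (mul n0 n4 n8 hc ft e4) f8).symm.trans s4)).2 (by decide)
  obtain ⟨rfl, hc5⟩ := e5
  have f16 := fL hs (c := 16) (by norm_num) rfl
  have e1 : s * ee ι t false 1 * s⁻¹ = ee ι t false 1 := by
    have k := eqv (l := [1, 32, 33]) (by decide) (by decide) false n4 false hc e4
    have k' := mul (by decide) (by decide)
      (xor_lt (conj_ac_wd (l := [1, 32, 33]) (by decide) hc).1 hc) (by decide)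
      (mul (conj_ac_wd (l := [1, 32, 33]) (by decide) n4).1 n4
        (conj_ac_wd (l := [1, 32, 33]) (by decide) hc).1 hc k e4) f16
    rcases hc5 with rfl | rfl <;> exact k'
  have e2 : s * ee ι t false 2 * s⁻¹ = ee ι t false 2 := by
    have k := eqv (l := [2, 8, 10]) (by decide) (by decide) false (by decide) false (by decide) e1
    exact mul (by decide) (by decide) (by decide) (by decide)
      (mul (by decide) (by decide) (by decide) (by decide) k e1) f8
  have e4' : s * ee ι t false 4 * s⁻¹ = ee ι t false 4 := by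
    rcases hc5 with rfl | rfl
    · exact e4
    exfalso
    have w : ([2, 32, 34, 4, 16, 20, 2, 32, 34].all (· < 64) &&
        (wd [2, 32, 34, 4, 16, 20, 2, 32, 34] 1 < 8 && (wd [2, 32, 34, 4, 16, 20, 2, 32, 34] 2 < 8 &&
          wd [2, 32, 34, 4, 16, 20, 2, 32, 34] 4 < 8))) = true := by decide
    have r : ([4, 16, 20].all (· < 64) &&
        (wd [4, 16, 20] 1 < 8 && (wd [4, 16, 20] 2 < 8 && wd [4, 16, 20] 4 < 8))) = true := by decide
    have m1 := h.P3_Nh (ev_mem_P3 w) hs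
    have m2 := h.P3_Nh (ev_mem_P3 r) hs
    have a1 := trc w
    have a2 := trc r
    have b1 := cj w false (by decide) false (by decide) (mul (by decide) (by decide) (by decide)
      (by decide) (mul (by decide) n4 (by decide) hc e2 e4) (fL hs (c := 32) (by norm_num) rfl))
    have b2 := cj r false (by decide) false (by decide) e2
    generalize ι (ev g [2, 32, 34, 4, 16, 20, 2, 32, 34]) * s *
      (ι (ev g [2, 32, 34, 4, 16, 20, 2, 32, 34]))⁻¹ = s' at m1 a1 b1
    generalize ι (ev g [4, 16, 20]) * s * (ι (ev g [4, 16, 20]))⁻¹ = s'' at m2 a2 b2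
    have b1' : s' * ee ι t false 38 * s'⁻¹ = ee ι t false 54 := b1
    have b2' : s'' * ee ι t false 38 * s''⁻¹ = ee ι t false 38 := b2
    have a1' : s' * t * s'⁻¹ = ee ι t true 16 := a1
    have a2' : s'' * t * s''⁻¹ = ee ι t true 24 := a2
    have c1 : s * ee ι t true 16 * s⁻¹ = ee ι t true 24 :=
      mul n0 (by decide) n8 (by decide) ft f16
    have c2 : s * ee ι t false 54 * s⁻¹ = ee ι t false 62 :=
      mul (by decide) (by decide) (by decide) (by decide)
        (mul (by decide) n4 (by decide) hc e2 e4) (fL hs (c := 48) (by norm_num) rfl)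
    have := same h (mul_mem hs m1) m2 (by rw [a2', ← c1, ← a1']; group)
      (ee_mem h false (c := 38) (by decide))
    rw [b2', show s * s' * ee ι t false 38 * (s * s')⁻¹ = s * (s' * ee ι t false 38 * s'⁻¹) * s⁻¹ by
      group, b1', c2] at this
    exact absurd (ee_inj h (by decide) (by decide) this).2 (by decide)
  rw [ee_f, mul_inv_eq_iff_eq_mul] at e1 e2 e4'
  intro a ha
  have := A_le (S := (centralizer {s}).comap ι) (mem_centralizer_singleton_iff.mpr e1.symm)
    (mem_centralizer_singleton_iff.mpr e2.symm) (mem_centralizer_singleton_iff.mpr e4'.symm)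
    (fun b hb => mem_centralizer_singleton_iff.mpr (hL b hb).symm) ha
  exact (mem_centralizer_singleton_iff.mp this).symm

end H

/-- the intermediate property -/
structure Q (ι : Sp →* G) (t s : G) : Prop where
  cA : ∀ a ∈ A, s * ι a = ι a * s
  cr : s * ι rho = ι rho * s
  tr : s * t * s⁻¹ = t * ι a12

section Q
variable (h : Hy ι t) {s s' : G}
include h

theorem tr_inv (cA : ∀ a ∈ A, s * ι a = ι a * s) (tr : s * t * s⁻¹ = t * ι a12) :
    s⁻¹ * t * s = t * ι a12 := by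
  have a := Lam_le_A a12_Lam
  have e : s * (t * ι a12) * s⁻¹ = t := by
    calc _ = s * t * s⁻¹ * (s * ι a12 * s⁻¹) := by group
      _ = t := by
        rw [tr, cA _ a, mul_inv_cancel_right, mul_assoc, ← map_mul, A_sq a, map_one, mul_one]
  calc s⁻¹ * t * s = s⁻¹ * (s * (t * ι a12) * s⁻¹) * s := by rw [e]
    _ = _ := by group

theorem rho_ee {i : Bool} {c : ℕ} (hc : c < 64) (e : ee ι t i c * ι rho = ι rho * ee ι t i c) :
    c &&& 52 = 0 := by
  refine rho_comm hc (h.inj ?_)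
  rw [map_mul, map_mul]
  cases i
  · rwa [ee_f] at e
  · rw [ee_t, ← mul_assoc, ← h.ct, mul_assoc, mul_assoc] at e
    exact mul_left_cancel e

theorem Q.diff (q : Q ι t s) (q' : Q ι t s') :
    ∃ i, ∃ c < 64, c &&& 52 = 0 ∧ s' = s * ee ι t i c := by
  have h1 : s⁻¹ * s' ∈ E3 ι t := by
    refine h.cen_E3 ?_ fun a ha => ?_
    · calc s⁻¹ * s' * t = s⁻¹ * (s' * t * s'⁻¹) * s' := by group
        _ = s⁻¹ * (s * t * s⁻¹) * s' := by rw [q.tr, q'.tr]
        _ = _ := by group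
    · calc s⁻¹ * s' * ι a = s⁻¹ * (ι a * s) * s⁻¹ * s' := by
            rw [mul_assoc, q'.cA a (Lam_le_A ha)]; group
        _ = _ := by rw [← q.cA a (Lam_le_A ha)]; group
  obtain ⟨i, c, hc, e⟩ := ee_ex h h1
  refine ⟨i, c, hc, rho_ee h hc (i := i) ?_, by rw [← e]; group⟩
  rw [← e]
  calc s⁻¹ * s' * ι rho = s⁻¹ * (ι rho * s) * s⁻¹ * s' := by rw [mul_assoc, q'.cr]; group
    _ = _ := by rw [← q.cr]; group

theorem Q.sq (q : Q ι t s) (i : Bool) {c : ℕ} (hc : c < 64) :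
    s * ee ι t i c * (s * ee ι t i c) = s * s * ee ι t false (bif i then 8 else 0) := by
  have e : s⁻¹ * ee ι t i c * s = ee ι t i (c ^^^ bif i then 8 else 0) := by
    cases i
    · rw [ee_f, mul_assoc, ← q.cA _ (ac_mem hc)]; simp [ee_f]
    · calc s⁻¹ * (t * ι (ac c)) * s = s⁻¹ * t * s * (s⁻¹ * (ι (ac c) * s)) := by group
        _ = _ := by
          rw [tr_inv h q.cA q.tr, ← q.cA _ (ac_mem hc), inv_mul_cancel_left, mul_assoc, ← map_mul,
            a12_ac, ac_mul (by decide) hc, Nat.xor_comm]; rfl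
  calc _ = s * s * (s⁻¹ * ee ι t i c * s * ee ι t i c) := by group
    _ = _ := by
      rw [e, ee_mul h _ _ (xor_lt hc (by cases i <;> decide)) hc, Bool.xor_self, Nat.xor_comm c,
        Nat.xor_assoc, Nat.xor_self, Nat.xor_zero]

theorem Q.conj (q : Q ι t s) {p : Sp} (hp : p ∈ P3) (h1 : p * rho = rho * p)
    (h2 : p * a12 = a12 * p) : Q ι t (ι p * s * (ι p)⁻¹) where
  cA a ha := by
    have := q.cA _ (P3_conj_A (inv_mem hp) ha)
    simp only [map_mul, map_inv, inv_inv] at this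
    calc _ = ι p * (s * ((ι p)⁻¹ * ι a * ι p)) * (ι p)⁻¹ := by group
      _ = _ := by rw [this]; group
  cr := by
    have e := congrArg ι h1
    rw [map_mul, map_mul] at e
    calc _ = ι p * s * (ι p)⁻¹ * (ι rho * ι p) * (ι p)⁻¹ := by group
      _ = ι p * (s * ι rho) * (ι p)⁻¹ := by rw [← e]; group
      _ = _ := by rw [q.cr, ← mul_assoc, e]; group
  tr := by
    calc _ = ι p * s * ((ι p)⁻¹ * t * (ι p)⁻¹⁻¹) * s⁻¹ * (ι p)⁻¹ := by group
      _ = ι p * (s * t * s⁻¹) * (ι p)⁻¹ := by rw [← map_inv, h.conj_t, map_inv]; group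
      _ = _ := by rw [q.tr, h.conj_tl, h2, mul_inv_cancel_right]

theorem Q.mul_ee (q : Q ι t s) (i : Bool) {c : ℕ} (hc : c < 64) (h2 : c &&& 52 = 0) :
    Q ι t (s * ee ι t i c) where
  cA a ha := by
    have := h.E3_comm (ee_mem h i hc) (h.mem_E3.mpr ⟨a, ha, Or.inl rfl⟩)
    rw [mul_assoc, this, ← mul_assoc, q.cA a ha, mul_assoc]
  cr := by
    have e : ee ι t i c * ι rho = ι rho * ee ι t i c := by
      have := congrArg ι (comm_rho hc h2)
      rw [map_mul, map_mul] at this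
      cases i
      · rwa [ee_f]
      · rw [ee_t, mul_assoc, this, ← mul_assoc, h.ct, mul_assoc]
    rw [mul_assoc, e, ← mul_assoc, q.cr, mul_assoc]
  tr := by
    have := h.E3_comm (ee_mem h i hc) (h.mem_E3.mpr ⟨1, one_mem _, Or.inr (by simp)⟩ : t ∈ _)
    calc _ = s * (ee ι t i c * t) * (ee ι t i c)⁻¹ * s⁻¹ := by group
      _ = _ := by rw [this, ← q.tr]; group

theorem Q.sq_ex (q : Q ι t s) : ∃ w < 64, w &&& 52 = 0 ∧ s * s = ee ι t false w := by
  have a := Lam_le_A a12_Lam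
  have h1 : s * s ∈ E3 ι t := by
    refine h.cen_E3 ?_ fun a ha => ?_
    · have := tr_inv h q.cA q.tr
      calc s * s * t = s * (s * t * s⁻¹) * s := by group
        _ = s * (s⁻¹ * t * s) * s := by rw [q.tr, this]
        _ = _ := by group
    · rw [mul_assoc, q.cA a (Lam_le_A ha), ← mul_assoc, q.cA a (Lam_le_A ha), mul_assoc]
  obtain ⟨i, c, hc, e⟩ := ee_ex h h1
  have h2 : c &&& 52 = 0 := rho_ee h hc (i := i) (by
    rw [← e, mul_assoc, q.cr, ← mul_assoc, q.cr, mul_assoc])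
  cases i
  · exact ⟨c, hc, h2, e⟩
  exfalso
  have e2 : s * (t * ι (ac c)) * s⁻¹ = t * ι (ac c) := by
    rw [← ee_t, ← e]; group
  have e3 : s * (t * ι (ac c)) * s⁻¹ = t * ι a12 * ι (ac c) := by
    calc _ = s * t * s⁻¹ * (s * ι (ac c) * s⁻¹) := by group
      _ = _ := by rw [q.tr, q.cA _ (ac_mem hc), mul_inv_cancel_right]
  rw [e2, mul_left_inj, left_eq_mul, ← map_one ι, a12_ac, ← ac_zero] at e3
  exact absurd (ac_inj (by decide) (by decide) (h.inj e3)) (by decide)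

end Q

theorem ex_Q (k : KF) (h : Hy ι t) {s : G} (cA : ∀ a ∈ A, s * ι a = ι a * s)
    (tr : s * t * s⁻¹ = t * ι a12) : ∃ s', Q ι t s' := by
  have ti := tr_inv h cA tr
  have r3 : rho ^ 3 = 1 := by
    have : rho = g 4 * g 32 := by simp [rho, ev]
    rw [this]; exact cube_g (by decide) (by decide) (by decide)
  have ra : ι rho * ι a12 = ι a12 * ι rho := by
    rw [← map_mul, ← map_mul, a12_ac, comm_rho (by decide) (by decide)]
  obtain ⟨x, hx⟩ := h.cen_cube (x := s * ι rho * s⁻¹) (by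
      calc _ = s * (ι rho * (s⁻¹ * t * s)) * s⁻¹ := by group
        _ = s * (s⁻¹ * t * s * ι rho) * s⁻¹ := by
          rw [ti, ← mul_assoc (ι rho), ← h.ct, mul_assoc t, ra, mul_assoc t]
        _ = _ := by group) (by rw [conj_pow, ← map_pow, r3]; simp)
  have cx : ∀ c < 64, c &&& 52 = 0 → x * ac c * x⁻¹ = ac c := fun c hc h2 => by
    apply h.inj
    have e1 := congrArg ι (comm_rho hc h2)
    rw [map_mul, map_mul] at e1
    have e2 := cA _ (ac_mem hc)
    rw [map_mul, map_mul, map_inv, ← hx]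
    calc _ = s * ι rho * s⁻¹ * (ι (ac c) * s) * (ι rho)⁻¹ * s⁻¹ := by group
      _ = s * (ι rho * ι (ac c)) * (ι rho)⁻¹ * s⁻¹ := by rw [← e2]; group
      _ = _ := by rw [← e1, mul_assoc s, mul_inv_cancel_right, e2, mul_inv_cancel_right]
  have x1 : act x 1 = 1 := g_inj (act_lt _ _) (by decide) (by
    rw [← conj_g, g1_ac]; exact cx 1 (by decide) (by decide))
  have x2 : act x 2 = 2 := g_inj (act_lt _ _) (by decide) (by
    rw [← conj_g, g2_ac]; exact cx 2 (by decide) (by decide))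
  obtain ⟨a, ha, e⟩ := k.d.rho x x1 x2
    (h.inj (by rw [map_pow, ← hx, conj_pow, ← map_pow, r3]; simp))
    (fun e => by
      rw [e, map_one, conj_eq_one_iff, ← map_one ι] at hx
      exact wne (l := [4, 32]) (l' := []) (by decide +kernel) (h.inj hx))
    (h.inj (by
      have e1 : g 4 * rho * g 4 = rho⁻¹ := by
        rw [rho, ev_inv (by decide), g_eq 4, ← ev_append, ← ev_append]
        exact weq (by decide +kernel)
      have e2 := cA _ (g_mem_A (u := 4) (by decide))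
      rw [map_mul, map_mul, map_inv, ← hx]
      calc _ = (ι (g 4) * s) * ι rho * s⁻¹ * (ι (g 4) * s) * s⁻¹ := by group
        _ = s * (ι (g 4) * ι rho * ι (g 4)) * s⁻¹ := by rw [← e2]; group
        _ = _ := by rw [← map_mul, ← map_mul, e1, map_inv]; group))
  refine ⟨(ι a)⁻¹ * s, fun b hb => ?_, ?_, ?_⟩
  · rw [mul_assoc, cA b hb, ← mul_assoc, ← map_inv, ← map_mul, A_comm (inv_mem ha) hb, map_mul,
      mul_assoc]
  · rw [e, map_mul, map_mul, map_inv] at hx
    calc _ = (ι a)⁻¹ * (s * ι rho * s⁻¹) * s := by group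
      _ = _ := by rw [hx]; group
  · calc _ = (ι a)⁻¹ * (s * t * s⁻¹) * (ι a)⁻¹⁻¹ := by group
      _ = _ := by
        rw [tr, ← map_inv, h.conj_tl, A_comm (inv_mem ha) (Lam_le_A a12_Lam), mul_inv_cancel_right]

theorem r3 : R3Stmt.{u} := by
  intro k G _ _ ι t h hb hc
  obtain ⟨s0, hs0, tr⟩ := hb a12 (Lam_le_A a12_Lam) hc
  obtain ⟨s1, q1⟩ := ex_Q k h (cenA h hs0 tr) tr
  have tw3 : (tw.all (· < 64) && (wd tw 1 < 8 && (wd tw 2 < 8 && wd tw 4 < 8))) = true := by decide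
  have τc : ∀ {s}, Q ι t s → Q ι t (ι (ev g tw) * s * (ι (ev g tw))⁻¹) := fun q =>
    q.conj h (ev_mem_P3 tw3) (comm_wd (l' := [4, 32]) (by decide +kernel))
      (comm_wd (l' := [1, 2, 3]) (by decide +kernel))
  have ex2 : ∃ s, Q ι t s ∧ s * s = 1 := by
    obtain ⟨w, hw, w2, e⟩ := q1.sq_ex h
    obtain ⟨i, c, hc, -, e1⟩ := q1.diff h (τc q1)
    have e2 := q1.sq h i hc
    rw [← e1, conj_mul, e, ee_conj h tw3 false hw,
      ee_mul h _ _ hw (by cases i <;> decide)] at e2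
    have e3 := (ee_inj h (conj_ac_wd tw3 hw).1 (xor_lt hw (by cases i <;> decide)) e2).2
    have key : ∀ w < 64, w &&& 52 = 0 → ∀ i : Bool, cjc (wd tw) w = w ^^^ (bif i then 8 else 0) →
        w = 0 ∨ w = 8 := by decide +kernel
    rcases key w hw w2 i e3 with rfl | rfl
    · exact ⟨s1, q1, by rw [e, ee_f, ac_zero, map_one]⟩
    · refine ⟨_, q1.mul_ee h true (c := 0) (by decide) (by decide), ?_⟩
      rw [q1.sq h true (by decide), e, ee_mul h _ _ (by decide) (by decide)]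
      exact (ee_f _).trans (by rw [show (8 ^^^ bif true then 8 else 0) = 0 from rfl, ac_zero, map_one])
  have d2 : ∀ {s s'}, Q ι t s → Q ι t s' → s * s = 1 → s' * s' = 1 →
      ∃ c < 64, c &&& 52 = 0 ∧ s' = s * ee ι t false c := fun {s s'} q q' e e' => by
    obtain ⟨i, c, hc, c2, e1⟩ := q.diff h q'
    cases i
    · exact ⟨c, hc, c2, e1⟩
    have e2 := q.sq h true hc
    rw [← e1, e, e', one_mul, ee_f, ← map_one ι, ← ac_zero] at e2
    exact absurd (ac_inj (by decide) (by decide) (h.inj e2)) (by decide)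
  obtain ⟨s2, q2, s22⟩ := ex2
  obtain ⟨w, hw, w2, e⟩ := d2 q2 (τc q2) s22 (by rw [conj_mul, s22]; simp)
  have τ3 : ι (ev g tw) * ι (ev g tw) * ι (ev g tw) = 1 := by
    rw [← map_mul, ← map_mul, ← ev_append, ← ev_append, ← map_one ι]
    exact congrArg ι (weq (l' := []) (by decide +kernel))
  have l1 := (conj_ac_wd tw3 hw).1
  have l2 := (conj_ac_wd tw3 l1).1
  have cm : ∀ {c : ℕ}, c < 64 → ι (ev g tw) * (s2 * ee ι t false c) * (ι (ev g tw))⁻¹ =
      s2 * ee ι t false (w ^^^ cjc (wd tw) c) := fun {c} hc => by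
    rw [← conj_mul, e, ee_conj h tw3 false hc, mul_assoc,
      ee_mul h _ _ hw (conj_ac_wd tw3 hc).1]; rfl
  have e3 : w ^^^ cjc (wd tw) (w ^^^ cjc (wd tw) w) = 0 := by
    have a1 := cm (xor_lt hw l1)
    rw [← cm hw, ← e] at a1
    have a2 : s2 * ee ι t false 0 =
        s2 * ee ι t false (w ^^^ cjc (wd tw) (w ^^^ cjc (wd tw) w)) := by
      rw [← a1, ee_f, ac_zero, map_one, mul_one]
      calc s2 = (ι (ev g tw) * ι (ev g tw) * ι (ev g tw)) * s2 *
          (ι (ev g tw) * ι (ev g tw) * ι (ev g tw))⁻¹ := by rw [τ3]; simp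
        _ = _ := by group
    exact (ee_inj h (by decide) (xor_lt hw (conj_ac_wd tw3 (xor_lt hw l1)).1)
      (mul_left_cancel a2)).2.symm
  have key : ∀ w < 64, w &&& 52 = 0 → w ^^^ cjc (wd tw) (w ^^^ cjc (wd tw) w) = 0 →
      ∃ v < 64, v &&& 52 = 0 ∧ w ^^^ cjc (wd tw) v = v := by decide +kernel
  obtain ⟨v, hv, v2, ev'⟩ := key w hw w2 e3
  have q := q2.mul_ee h false hv v2
  have c3 := cm hv
  have ss : s2 * ee ι t false v * (s2 * ee ι t false v) = 1 := by
    rw [q2.sq h false hv, s22, one_mul]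
    exact (ee_f _).trans (by rw [show (bif false then 8 else 0) = 0 from rfl, ac_zero, map_one])
  rw [ev'] at c3
  generalize s2 * ee ι t false v = s at q c3 ss
  obtain ⟨c, hc, c2, e4⟩ := d2 q (q.conj h (T0_le_P3 r12_T0)
    (comm_wd (l := [1, 16, 17]) (l' := [4, 32]) (by decide +kernel))
    (comm_wd (l := [1, 16, 17]) (l' := [1, 2, 3]) (by decide +kernel))) ss
    (by rw [conj_mul, ss]; simp)
  have rt : ι (ev g tw) * ι r12 = ι r12 * (ι (ev g tw))⁻¹ := by
    rw [← map_inv, ← map_mul, ← map_mul, ev_inv (by decide), r12, sg, ← ev_append, ← ev_append]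
    exact congrArg ι (weq (by decide +kernel))
  have e5 : ι (ev g tw) * (ι r12 * s * (ι r12)⁻¹) * (ι (ev g tw))⁻¹ = ι r12 * s * (ι r12)⁻¹ := by
    calc _ = (ι (ev g tw) * ι r12) * s * (ι (ev g tw) * ι r12)⁻¹ := by group
      _ = ι r12 * ((ι (ev g tw))⁻¹ * s * ι (ev g tw)) * (ι r12)⁻¹ := by rw [rt]; group
      _ = ι r12 * ((ι (ev g tw))⁻¹ * (ι (ev g tw) * s * (ι (ev g tw))⁻¹) * ι (ev g tw)) *
          (ι r12)⁻¹ := by rw [c3]
      _ = _ := by group
  rw [e4, ← conj_mul, c3, ee_conj h tw3 false hc] at e5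
  have e6 := (ee_inj h (conj_ac_wd tw3 hc).1 hc (mul_left_cancel e5)).2
  have key2 : ∀ c < 64, c &&& 52 = 0 → cjc (wd tw) c = c → c = 0 ∨ c = 8 := by decide +kernel
  have si : s⁻¹ = s := inv_eq_of_mul_eq_one_right ss
  have e7 : s * ι r12 * s⁻¹ = ι (ac c * r12) := by
    rw [map_mul, ← ee_f (t := t)]
    calc _ = s⁻¹ * (ι r12 * s * (ι r12)⁻¹) * ι r12 := by rw [si]; group
      _ = _ := by rw [e4]; group
  have c3' : s * ι (r12 * r21) = ι (r12 * r21) * s := by
    rw [tau_eq]; exact (mul_inv_eq_iff_eq_mul.mp c3).symm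
  rcases key2 c hc c2 e6 with rfl | rfl
  · exact ⟨s, false, ss, q.cA, q.cr, c3', q.tr, by rw [e7, ac_zero, one_mul]; rfl⟩
  · refine ⟨s, true, ss, q.cA, q.cr, c3', q.tr, ?_⟩
    rw [e7, ← a12_ac]
    exact congrArg ι (comm_wd (l := [1, 2, 3]) (l' := [1, 16, 17]) (by decide +kernel))

end Cfsg.Agent.H2S6
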