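import Cfsg.Agent.H33.UgTvk

/-! The bound on the second layer of a unipotent group without transvections. -/

set_option autoImplicit false

namespace Cfsg.Agent.H2UgL3

open Cfsg Module Cfsg.Agent.H31 Cfsg.Agent.H25.UG
open Cfsg.Agent.H53.Uw (St)

universe u

/-- A large additive subgroup is not isotropic modulo a proper subgroup of the skew elements. -/
theorem iso_card {E : Type*} [Field E] [Fintype E] {σ : E →+* E} {q : ℕ}
    (hF : Fintype.card E = q ^ 2) (hσ : ∀ x, σ x = x ^ q) (inv : ∀ x, σ (σ x) = x)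
    (Y C : AddSubgroup E) (hC : ∀ s ∈ Y, ∀ t ∈ Y, σ s * t - σ t * s ∈ C) (hY : q < Nat.card Y)
    {r : E} (hr : r + σ r = 0) : r ∈ C := by
  classical
  by_contra hn
  have hq : 0 < q := by
    rcases Nat.eq_zero_or_pos q with h | h
    · rw [h] at hF
      exact absurd hF (by simp)
    · exact h
  obtain ⟨w, hw⟩ : ∃ w : E, w + σ w = 1 := by
    have h1 := card_trace_eq hF hσ (map_one σ)
    have h2 : Nonempty {x : E // x + σ x = 1} := (Nat.card_pos_iff.1 (h1 ▸ hq)).1
    obtain ⟨w, hw⟩ := h2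
    exact ⟨w, hw⟩
  have hne : (QuotientAddGroup.mk r : E ⧸ C) ≠ 0 := fun h =>
    hn ((QuotientAddGroup.eq_zero_iff r).1 h)
  obtain ⟨ψ, hψ⟩ := (AddChar.exists_apply_ne_zero (a := (QuotientAddGroup.mk r : E ⧸ C))).2 hne
  let g : E → E →+ E := fun s =>
    { toFun := fun t => σ s * t - σ t * s
      map_zero' := by simp
      map_add' := fun a b => by rw [map_add]; ring }
  let χ : Y → AddChar (E ⧸ Y) ℂ := fun s =>
    ψ.compAddMonoidHom (QuotientAddGroup.map Y C (g s) fun t ht => hC s s.2 t ht)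
  have hχ : ∀ (s : Y) (t : E), χ s (QuotientAddGroup.mk t) =
      ψ (QuotientAddGroup.mk (σ s * t - σ t * s)) := fun _ _ => rfl
  have inj : Function.Injective χ := by
    intro s s' e
    by_contra hss
    have h0 : (s : E) - s' ≠ 0 := fun h => hss (Subtype.ext (sub_eq_zero.1 h))
    have h1 : σ ((s : E) - s') ≠ 0 := (map_ne_zero σ).2 h0
    obtain ⟨t, ht⟩ : ∃ t : E, σ ((s : E) - s') * t = r * w := ⟨_, mul_div_cancel₀ _ h1⟩
    have ht' : ((s : E) - s') * σ t = σ r * σ w := by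
      rw [← map_mul, ← ht, map_mul, inv]
    have e1 : σ s * t - σ t * s = r + (σ s' * t - σ t * s') := by
      rw [map_sub] at ht
      linear_combination ht - ht' + r * hw - σ w * hr
    have e2 := hχ s t
    rw [e, hχ, e1, QuotientAddGroup.mk_add, AddChar.map_add_eq_mul] at e2
    have e3 : ψ (QuotientAddGroup.mk (σ s' * t - σ t * s') : E ⧸ C) ≠ 0 :=
      (ψ.val_isUnit _).ne_zero
    exact hψ (mul_right_cancel₀ e3 (e2.symm.trans (one_mul _).symm))
  have c1 : Nat.card Y ≤ Nat.card (E ⧸ Y) := by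
    have := Nat.card_le_card_of_injective χ inj
    rwa [Nat.card_eq_fintype_card (α := AddChar _ _), AddChar.card_eq,
      ← Nat.card_eq_fintype_card] at this
  have c2 := AddSubgroup.card_eq_card_quotient_mul_card_addSubgroup Y
  rw [Nat.card_eq_fintype_card (α := E), hF] at c2
  nlinarith

section
variable {E V : Type*} [Field E] [AddCommGroup V] [Module E V]
  {σ : E →+* E} (B : V →ₛₗ[σ] V →ₗ[E] E) (S : Subgroup (V ≃ₗ[E] V)) (e₁ e₂ : V)

/-- The skew-Hermitian two by two matrices realised in `S`. -/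
def Dg (h11 : B e₁ e₁ = 0) (h12 : B e₁ e₂ = 0) (h21 : B e₂ e₁ = 0) (h22 : B e₂ e₂ = 0) :
    AddSubgroup (E × E × E) where
  carrier := {d | (d.1 + σ d.1 = 0 ∧ d.2.2 + σ d.2.2 = 0) ∧ ∃ g ∈ S, ∀ u, g u =
    u + (d.1 * B e₁ u + d.2.1 * B e₂ u) • e₁ + (-σ d.2.1 * B e₁ u + d.2.2 * B e₂ u) • e₂}
  zero_mem' := ⟨by simp, 1, S.one_mem, fun u => by simp⟩
  add_mem' := by
    rintro d d' ⟨⟨h1, h2⟩, g, hg, e⟩ ⟨⟨h3, h4⟩, g', hg', e'⟩
    refine ⟨⟨?_, ?_⟩, g * g', S.mul_mem hg hg', fun u => ?_⟩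
    · simp only [Prod.fst_add, map_add]; linear_combination h1 + h3
    · simp only [Prod.snd_add, map_add]; linear_combination h2 + h4
    · have b1 : B e₁ (g' u) = B e₁ u := by
        rw [e', map_add, map_add, map_smul, map_smul, h11, h12]; simp
      have b2 : B e₂ (g' u) = B e₂ u := by
        rw [e', map_add, map_add, map_smul, map_smul, h21, h22]; simp
      rw [LinearEquiv.mul_apply, e, b1, b2, e']
      simp only [Prod.fst_add, Prod.snd_add, map_add]
      module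
  neg_mem' := by
    rintro d ⟨⟨h1, h2⟩, g, hg, e⟩
    refine ⟨⟨?_, ?_⟩, g⁻¹, S.inv_mem hg, fun u => ?_⟩
    · simp only [Prod.fst_neg, map_neg]; linear_combination -h1
    · simp only [Prod.snd_neg, map_neg]; linear_combination -h2
    · obtain ⟨u, rfl⟩ := g.surjective u
      have b1 : B e₁ (g u) = B e₁ u := by
        rw [e, map_add, map_add, map_smul, map_smul, h11, h12]; simp
      have b2 : B e₂ (g u) = B e₂ u := by
        rw [e, map_add, map_add, map_smul, map_smul, h21, h22]; simp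
      rw [inv_apply_apply, b1, b2, e]
      simp only [Prod.fst_neg, Prod.snd_neg, map_neg]
      module

/-- The second layer. -/
def Yg (W : Submodule E V) (v : V) (h1 : e₁ ∈ W) (h2 : e₂ ∈ W) : AddSubgroup E where
  carrier := {b | ∃ g ∈ S, (∀ w ∈ W, g w = w) ∧ ∃ c : E, g v = v + (c • e₁ + b • e₂)}
  zero_mem' := ⟨1, S.one_mem, fun _ _ => rfl, 0, by simp⟩
  add_mem' := by
    rintro b b' ⟨g, hg, f, c, e⟩ ⟨g', hg', f', c', e'⟩
    refine ⟨g * g', S.mul_mem hg hg', fun w hw => ?_, c + c', ?_⟩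
    · rw [LinearEquiv.mul_apply, f' w hw, f w hw]
    · rw [LinearEquiv.mul_apply, e', map_add, e,
        f _ (W.add_mem (W.smul_mem _ h1) (W.smul_mem _ h2))]
      module
  neg_mem' := by
    rintro b ⟨g, hg, f, c, e⟩
    refine ⟨g⁻¹, S.inv_mem hg, fun w hw => ?_, -c, ?_⟩
    · conv_lhs => rw [← f w hw]
      exact inv_apply_apply g w
    · have : g (v + ((-c) • e₁ + (-b) • e₂)) = v := by
        rw [map_add, e, f _ (W.add_mem (W.smul_mem _ h1) (W.smul_mem _ h2))]
        module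
      conv_lhs => rw [← this]
      exact inv_apply_apply g _

end

theorem l3 (cw : CwStmt.{u}) : L3Stmt.{u} := by
  intro E V _ _ _ _ _ σ B q S e₁ e₂ e₃ v x y z a₁ a₂ a₃ st h7 m nt
  classical
  have : FiniteDimensional E V := Module.Finite.of_finite
  have inv : ∀ c, σ (σ c) = c := st.herm.inv.invol
  have li : ∀ c₁ c₂ c₃ : E, c₁ • e₁ + c₂ • e₂ + c₃ • e₃ = 0 → c₁ = 0 ∧ c₂ = 0 ∧ c₃ = 0 :=
    fun c₁ c₂ c₃ e => by
      have := Fintype.linearIndependent_iff.1 m.li ![c₁, c₂, c₃] (by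
        simpa [Fin.sum_univ_three] using e)
      exact ⟨this 0, this 1, this 2⟩
  set W := Submodule.span E {e₁, e₂, e₃} with hW
  have h3 : finrank E W = 3 := by
    have := finrank_span_eq_card m.li
    rwa [show Set.range ![e₁, e₂, e₃] = {e₁, e₂, e₃} by ext; simp; tauto, Fintype.card_fin]
      at this
  have ov : ∀ w ∈ W, B w v = 0 := mem_perp.1 (mem_perp_span.2 (by
    rintro _ (rfl | rfl | rfl)
    exacts [m.o₁, m.o₂, m.o₃]))
  have fx : ∀ n : S, x n = 0 → y n = 0 → z n = 0 → ∀ w ∈ W, n.1 w = w := fun n h1 h2 h4 w hw => by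
    induction hw using Submodule.span_induction with
    | mem w hw =>
      rcases hw with rfl | rfl | rfl
      · exact m.g₁ n
      · rw [m.g₂, h1, zero_smul, add_zero]
      · rw [m.g₃, h2, h4, zero_smul, zero_smul, add_zero, add_zero]
    | zero => exact map_zero _
    | add a b _ _ ha hb => rw [map_add, ha, hb]
    | smul c a _ ha => rw [map_smul, ha]
  have w1 : e₁ ∈ W := Submodule.subset_span (by simp)
  have w2 : e₂ ∈ W := Submodule.subset_span (by simp)
  have w12 : ∀ c b : E, c • e₁ + b • e₂ ∈ W := fun c b =>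
    W.add_mem (W.smul_mem _ w1) (W.smul_mem _ w2)
  set Y := Yg S e₁ e₂ W v w1 w2 with hYd
  set D := Dg B S e₁ e₂ (m.ti _ w1 _ w1) (m.ti _ w1 _ w2) (m.ti _ w2 _ w1) (m.ti _ w2 _ w2)
    with hDd
  have sub : {b : E | ∃ n, x n = 0 ∧ y n = 0 ∧ z n = 0 ∧ a₃ n = 0 ∧ a₂ n = b} ⊆ (Y : Set E) := by
    rintro b ⟨n, h1, h2, h4, h5, rfl⟩
    exact ⟨n.1, n.2, fx n h1 h2 h4, a₁ n, by rw [m.gv, h5, zero_smul, add_zero, add_assoc]⟩
  by_contra hlt
  push Not at hlt
  have hY : q < Nat.card Y := by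
    have := Set.ncard_le_ncard sub (Set.toFinite _)
    exact lt_of_lt_of_le hlt this
  have hq : 1 ≤ q := by
    rcases Nat.eq_zero_or_pos q with h | h
    · have hF := st.card
      rw [h] at hF
      exact absurd hF (by simp)
    · exact h
  -- the commutators
  have com : ∀ g ∈ S, ∀ g' ∈ S, (∀ w ∈ W, g w = w) → (∀ w ∈ W, g' w = w) → ∀ c b c' b' : E,
      g v = v + (c • e₁ + b • e₂) → g' v = v + (c' • e₁ + b' • e₂) →
      (σ c * c' - σ c' * c, σ b * c' - σ b' * c, σ b * b' - σ b' * b) ∈ D := by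
    intro g hg g' hg' f f' c b c' b' e e'
    refine ⟨⟨?_, ?_⟩, g * g' * (g' * g)⁻¹,
      S.mul_mem (S.mul_mem hg hg') (S.inv_mem (S.mul_mem hg' hg)), fun u => ?_⟩
    · simp only [map_sub, map_mul, inv]; ring
    · simp only [map_sub, map_mul, inv]; ring
    · obtain ⟨u, rfl⟩ := (g' * g).surjective u
      have bb : ∀ w ∈ W, B w ((g' * g) u) = B w u := fun w hw => by
        rw [← m.le (S.mul_mem hg' hg) w u, LinearEquiv.mul_apply g' g w, f w hw, f' w hw]
      rw [← LinearEquiv.mul_apply, inv_mul_cancel_right, bb _ w1, bb _ w2]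
      obtain ⟨w, hw, k⟩ := H33.UgTvk.exists_w st.herm h7 h3 m.ti m.vv ov (m.le hg) f
        (w12 c b) e u
      obtain ⟨w', hw', k'⟩ := H33.UgTvk.exists_w st.herm h7 h3 m.ti m.vv ov (m.le hg') f'
        (w12 c' b') e' u
      rw [LinearEquiv.mul_apply, LinearEquiv.mul_apply]
      conv_lhs => rw [k', map_add, map_sub, map_smul, k, e, f w' hw']
      conv_rhs => rw [k, map_add, map_sub, map_smul, k', e', f' w hw]
      simp only [add_left, smul_left, map_sub, map_mul, inv]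
      module
  -- an element moving `v` by `e₁`
  obtain ⟨n₀, p1, p2, p3, p4, p5, p6⟩ := m.eA (by
    by_contra hne
    push Not at hne
    have : {b : E | ∃ n, x n = 0 ∧ y n = 0 ∧ z n = 0 ∧ a₃ n = 0 ∧ a₂ n = b} ⊆ {0} := by
      rintro b ⟨n, h1, h2, h4, -, rfl⟩
      exact (hne n h1 h2 h4).2.1
    have := Set.ncard_le_ncard this (Set.toFinite _)
    rw [Set.ncard_singleton] at this
    omega)
  have k1 : ∀ b : Y, ∃ d : D, d.1.2.1 = -σ b ∧ d.1.2.2 = 0 := by
    rintro ⟨b, g, hg, f, c, e⟩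
    refine ⟨⟨_, com n₀.1 n₀.2 g hg (fx n₀ p1 p2 p3) f 1 0 c b
      (by rw [m.gv, p4, p5, p6, zero_smul, zero_smul, add_zero, add_zero, add_zero]) e⟩, ?_, ?_⟩
    · simp
    · simp
  have k2 : ∀ r : skewGrp σ, ∃ d : D, d.1.2.2 = r := by
    intro r
    have := iso_card st.card st.pow inv Y
      (D.map ((AddMonoidHom.snd E E).comp (AddMonoidHom.snd E (E × E)))) (by
        rintro s ⟨g, hg, f, c, e⟩ t ⟨g', hg', f', c', e'⟩
        exact ⟨_, com g hg g' hg' f f' c s c' t e e', rfl⟩) hY (mem_skewGrp.1 r.2)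
    obtain ⟨d, hd, e⟩ := this
    exact ⟨⟨d, hd⟩, e⟩
  choose κ κ1 κ2 using k1
  choose δ δ2 using k2
  have inj : Function.Injective fun p : Y × skewGrp σ => κ p.1 + δ p.2 := by
    rintro ⟨b, r⟩ ⟨b', r'⟩ e
    have e1 : (κ b).1.2.2 + (δ r).1.2.2 = (κ b').1.2.2 + (δ r').1.2.2 :=
      congrArg (fun d : D => d.1.2.2) e
    rw [κ2, κ2, δ2, δ2, zero_add, zero_add] at e1
    obtain rfl : r = r' := Subtype.ext e1
    have e2 : (κ b).1.2.1 + (δ r).1.2.1 = (κ b').1.2.1 + (δ r).1.2.1 :=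
      congrArg (fun d : D => d.1.2.1) e
    rw [κ1, κ1] at e2
    obtain rfl : b = b' := Subtype.ext (σ.injective (neg_injective (add_right_cancel e2)))
    rfl
  have hD : q ^ 2 < Nat.card D := by
    have := Nat.card_le_card_of_injective _ inj
    rw [Nat.card_prod, card_skewGrp st.card st.pow] at this
    nlinarith
  obtain ⟨⟨c₁, c₂, c₃⟩, ⟨⟨s1, s3⟩, g, hg, e⟩, d0, det⟩ :=
    cw E σ q st.card st.pow D (fun d hd => hd.1) hD
  simp only at s1 s3 e det
  have key : ∀ (a : V) (c : E), a ∈ W → c + σ c = 0 → a ≠ 0 → c ≠ 0 →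
      (∀ u, g u = u + (c * B a u) • a) → False := fun a c ha hc a0 c0 e => by
    refine nt ⟨a, c, m.ti a ha a ha, hc, a0, c0, ?_⟩
    have : tv B a c (m.ti a ha a ha) hc = g := LinearEquiv.ext fun u => (e u).symm
    rw [this]
    exact hg
  by_cases h0 : c₁ = 0
  · subst h0
    have h2 : c₂ = 0 := by
      rw [zero_mul, zero_add] at det
      rcases mul_eq_zero.1 det with h | h
      · exact h
      · exact (map_eq_zero σ).1 h
    subst h2
    refine key e₂ c₃ w2 s3 (fun h => one_ne_zero (li 0 1 0 (by rw [h]; simp)).2.1)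
      (fun h => d0 (by rw [h]; rfl)) fun u => ?_
    rw [e]
    simp
  · obtain ⟨β, hβ⟩ : ∃ β : E, c₁ * β = -σ c₂ := ⟨_, mul_div_cancel₀ _ h0⟩
    have hβ' : c₁ * σ β = c₂ := by
      have := congrArg σ hβ
      rw [map_mul, map_neg, inv] at this
      linear_combination -this + σ β * s1
    have h33 : c₃ = c₂ * β := mul_left_cancel₀ h0 (by linear_combination det - c₂ * hβ)
    refine key ((1 : E) • e₁ + β • e₂) c₁ (w12 1 β) s1
      (fun h => one_ne_zero (li 1 β 0 (by rw [h]; simp)).1) h0 fun u => ?_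
    rw [e, add_left, smul_left, smul_left, map_one, h33, ← hβ, ← hβ']
    module

end Cfsg.Agent.H2UgL3
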