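import Cfsg.Agent.H74.UVDefs
import Cfsg.Agent.H72.SgCt

/-! Project UV, piece MAX. -/

set_option autoImplicit false

namespace Cfsg.Agent.H2UvMax

open Cfsg Module Cfsg.Agent.H31 Cfsg.Agent.H77.Sg Cfsg.Agent.H74.UV
open Cfsg.Agent.H53.Uw (St)

universe u

theorem arith (q : ℕ) : ∃ R t, q ^ 11 + 1 = R * (q + 1) * t ∧
    ((R = 1 ∧ ¬ 11 ∣ q + 1) ∨ (R = 11 ∧ 11 ∣ q + 1)) := by
  by_cases h : 11 ∣ q + 1
  · have : 11 * (q + 1) ∣ q ^ 11 + 1 := by
      obtain ⟨b, hb⟩ := h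
      rw [← Int.natCast_dvd_natCast]
      have e : (q : ℤ) = 11 * b - 1 := by omega
      refine ⟨1 - 5 * (11 * b) + 15 * (11 * b) ^ 2 - 30 * (11 * b) ^ 3 + 42 * (11 * b) ^ 4 -
        42 * (11 * b) ^ 5 + 30 * (11 * b) ^ 6 - 15 * (11 * b) ^ 7 + 5 * (11 * b) ^ 8 -
        (11 * b) ^ 9 + 11 ^ 9 * b ^ 10, ?_⟩
      push_cast
      rw [e]; ring
    obtain ⟨t, ht⟩ := this
    exact ⟨11, t, ht, .inr ⟨rfl, h⟩⟩
  · obtain ⟨t, ht⟩ := Odd.nat_add_dvd_pow_add_pow q 1 (show Odd 11 by decide)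
    exact ⟨1, t, by rw [one_mul, ← ht, one_pow], .inl ⟨rfl, h⟩⟩

section
variable {E K : Type u} [Field E] [Fintype E] [Field K] [Algebra E K] [Finite K]
  {σ : E →+* E} {B : K →ₛₗ[σ] K →ₗ[E] E} {q R t : ℕ}

omit [Fintype E] [Finite K] in
theorem nm_mulH (a : Kˣ) : Nm (mulH E K a) := fun b => ⟨b, fun x => by
  rw [mulH_apply, mulH_apply, mul_left_comm]⟩

theorem det_iff (k : Kt B q R t) (s : Kˣ) : LinearEquiv.det (mulH E K s) = 1 ↔
    s ^ (R * t * (1 + q + q ^ 2 + q ^ 3 + q ^ 4 + q ^ 5 + q ^ 6 + q ^ 7 + q ^ 8 + q ^ 9 + q ^ 10)) = 1 := by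
  have e : ∑ i ∈ Finset.range 11, (q ^ 2) ^ i =
      R * t * (1 + q + q ^ 2 + q ^ 3 + q ^ 4 + q ^ 5 + q ^ 6 + q ^ 7 + q ^ 8 + q ^ 9 + q ^ 10) := by
    refine Nat.eq_of_mul_eq_mul_left (show 0 < q + 1 by omega) ?_
    have := k.card
    rw [show (q + 1) * (R * t * (1 + q + q ^ 2 + q ^ 3 + q ^ 4 + q ^ 5 + q ^ 6 + q ^ 7 + q ^ 8 + q ^ 9 + q ^ 10)) =
      R * (q + 1) * t * (1 + q + q ^ 2 + q ^ 3 + q ^ 4 + q ^ 5 + q ^ 6 + q ^ 7 + q ^ 8 + q ^ 9 + q ^ 10) by ring, ← this]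
    simp only [Finset.sum_range_succ, Finset.sum_range_zero]
    ring
  rw [Units.ext_iff, LinearEquiv.coe_det, H72.SgCt.det_mulH, Units.val_one,
    ← (algebraMap E K).injective.eq_iff, FiniteField.algebraMap_norm_eq_pow_sum, map_one, k.rk,
    Nat.card_eq_fintype_card, k.st.card, e, Units.ext_iff, Units.val_pow_eq_pow_val, Units.val_one]

theorem split (k : Kt B q R t) {s : Kˣ} (hs : mulH E K s ∈ sisom B) :
    ∃ z ∈ Rt K (q + 1), ∃ p ∈ Rt K t, s = z * p := by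
  have h1 : s ^ (q ^ 11 + 1) = 1 := (k.iso s).1 hs.1
  have h2 := (det_iff k s).1 hs.2
  have h3 : s ^ (R * t) = 1 := by
    have c : (q + 1).Coprime (1 + q + q ^ 2 + q ^ 3 + q ^ 4 + q ^ 5 + q ^ 6 + q ^ 7 + q ^ 8 + q ^ 9 + q ^ 10) := by
      rw [show 1 + q + q ^ 2 + q ^ 3 + q ^ 4 + q ^ 5 + q ^ 6 + q ^ 7 + q ^ 8 + q ^ 9 + q ^ 10 =
        1 + (q + 1) * (q + q ^ 3 + q ^ 5 + q ^ 7 + q ^ 9) by ring, Nat.coprime_add_mul_left_right]
      exact Nat.coprime_one_right _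
    rw [k.card, show R * (q + 1) * t = R * t * (q + 1) by ring, pow_mul] at h1
    rw [pow_mul] at h2
    exact (pow_eq_one_iff_of_coprime c).1 ⟨h1, h2⟩
  have hR : R ∣ q + 1 ∧ R.Coprime t := by
    rcases k.hR with ⟨rfl, -⟩ | ⟨rfl, h⟩
    exacts [⟨one_dvd _, Nat.coprime_one_left _⟩, ⟨h, k.cop7.symm⟩]
  obtain ⟨a, b, hab⟩ := Nat.isCoprime_iff_coprime.2 hR.2
  refine ⟨(s ^ t) ^ b, zpow_mem ?_ _, (s ^ R) ^ a, zpow_mem ?_ _, ?_⟩
  · obtain ⟨c, hc⟩ := hR.1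
    change (s ^ t) ^ (q + 1) = 1
    rw [hc, pow_mul, ← pow_mul s t R, mul_comm t R, h3, one_pow]
  · change (s ^ R) ^ t = 1
    rw [← pow_mul, h3]
  · rw [← zpow_natCast, ← zpow_natCast, ← zpow_mul, ← zpow_mul, ← zpow_add,
      show (t : ℤ) * b + R * a = 1 by linear_combination hab, zpow_one]

theorem cen (k : Kt B q R t) {z : Kˣ} (hz : z ∈ Rt K (q + 1)) (g : K ≃ₗ[E] K) :
    mulH E K z * g = g * mulH E K z := by
  obtain ⟨c, -, hc⟩ := k.zE z hz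
  ext x
  simp only [LinearEquiv.mul_apply, mulH_apply, hc, ← Algebra.smul_def, map_smul]

theorem proper (st : St B q) (rk : finrank E K = 11) : ∃ g ∈ sisom B, ¬ Nm g := by
  have h := st.herm
  obtain ⟨w, -, w0, hw⟩ := h.exists_isotropic h.nondegOn_top (by rw [finrank_top]; omega)
  obtain ⟨c, c0, hc⟩ := h.inv.exists_skew'
  obtain ⟨a, ha⟩ : ∃ a : K, a ∉ E ∙ (1 : K) := by
    by_contra n
    push Not at n
    have := finrank_span_singleton (K := E) (one_ne_zero (α := K))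
    rw [Submodule.eq_top_iff'.2 n, finrank_top] at this
    omega
  refine ⟨tv B w c hw hc, h.tv_mem_sisom hw hc, fun hN => ?_⟩
  obtain ⟨a', ha'⟩ := hN a
  obtain ⟨x, hx, x0⟩ := Submodule.exists_mem_ne_zero_of_ne_bot (LinearMap.ker_ne_bot_of_finrank_lt
    (f := (B w).prod ((B w).comp (LinearMap.mulLeft E a))) (by simp [rk]))
  have x1 : B w x = 0 := congrArg Prod.fst hx
  have x2 : B w (a * x) = 0 := congrArg Prod.snd hx
  have e := ha' x
  rw [tv_apply_of_perp hw hc x1, tv_apply_of_perp hw hc x2] at e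
  obtain rfl : a = a' := mul_right_cancel₀ x0 e
  obtain ⟨b, hb⟩ := (H51.SgKit.kit E K (by rw [rk]; norm_num)).cent _ a ha ha'
  have e1 := tv_apply_of_perp hw hc x1
  rw [hb, mulH_apply] at e1
  have b1 : (b : K) = 1 := mul_right_cancel₀ x0 (by rw [e1, one_mul])
  refine w0 (h.nondeg w fun y => ?_)
  have e2 := tv_apply hw hc y
  rw [hb, mulH_apply, b1, one_mul, left_eq_add, smul_eq_zero, mul_eq_zero] at e2
  exact (e2.resolve_right w0).resolve_left c0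

end

theorem maxS (kt : KtStmt.{u}) (main : MainStmt.{u}) : MaxStmt.{u} := by
  intro E K _ _ _ _ _ σ B q st rk form N hN
  obtain ⟨R, t, hc, hR⟩ := arith q
  have k := kt E K σ B q R t ⟨st, rk, form, hc, hR⟩
  refine ⟨lt_of_le_of_ne inf_le_right fun e => ?_, fun M h1 h2 => ?_⟩
  · obtain ⟨g, hg, n⟩ := proper st rk
    rw [← e] at hg
    exact n ((hN g).1 hg.1)
  by_cases hM : M ≤ N
  · exact .inl (le_antisymm (le_inf hM h2) h1)
  refine .inr (le_antisymm h2 ?_)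
  obtain ⟨g0, g1, g2⟩ := SetLike.not_le_iff_exists.1 hM
  let G : Subgroup (K ≃ₗ[E] K) :=
    { carrier := {g | ∃ m ∈ M, ∃ z ∈ Rt K (q + 1), g = mulH E K z * m}
      one_mem' := ⟨1, one_mem _, 1, one_mem _, by simp⟩
      mul_mem' := by
        rintro _ _ ⟨m, hm, z, hz, rfl⟩ ⟨m', hm', z', hz', rfl⟩
        refine ⟨_, mul_mem hm hm', _, mul_mem hz hz', ?_⟩
        rw [map_mul, mul_assoc, mul_assoc, ← mul_assoc m, ← cen k hz', mul_assoc]
      inv_mem' := by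
        rintro _ ⟨m, hm, z, hz, rfl⟩
        refine ⟨_, inv_mem hm, _, inv_mem hz, ?_⟩
        rw [mul_inv_rev, ← map_inv, cen k (inv_mem hz)] }
  have MG : M ≤ G := fun m hm => ⟨m, hm, 1, one_mem _, by simp⟩
  have hG : sisom B ≤ G := by
    refine main E K σ B q R t G ⟨k, ?_, fun a => ⟨?_, ?_⟩, ?_, ⟨g0, MG g1, fun n => g2 ((hN _).2 n)⟩, ?_⟩
    · rintro _ ⟨m, hm, z, hz, rfl⟩
      exact mul_mem ((k.iso z).2 (k.ZT hz)) (h2 hm).1
    · rintro ⟨m, hm, z, hz, e⟩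
      have : mulH E K (z⁻¹ * a) = m := by rw [map_mul, map_inv, e, inv_mul_cancel_left]
      obtain ⟨z', hz', p, hp, e'⟩ := split k (this ▸ h2 hm)
      exact ⟨_, mul_mem hz hz', p, hp, by rw [mul_assoc, ← e', mul_inv_cancel_left]⟩
    · rintro ⟨z, hz, s, hs, rfl⟩
      refine ⟨_, h1 ⟨(hN _).2 (nm_mulH s), (k.iso s).2 (k.PT hs), (det_iff k s).2 ?_⟩, z, hz,
        map_mul _ _ _⟩
      have : s ^ t = 1 := hs
      rw [mul_comm R t, mul_assoc, pow_mul, this, one_pow]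
    · obtain ⟨φ, d, n, f⟩ := H72.SgCt.frob (F := E) (K := K) (by rw [rk]; decide)
      rw [Nat.card_eq_fintype_card] at f
      refine ⟨φ, MG (h1 ⟨(hN _).2 n, fun x y => ?_, Units.ext (by rw [LinearEquiv.coe_det, d]; rfl)⟩),
        fun x => by rw [f, st.card]⟩
      rw [form, form, f, f, ← pow_mul, mul_comm (Fintype.card E), pow_mul, ← mul_pow]
      exact Algebra.trace_eq_of_algEquiv (FiniteField.frobeniusAlgEquivOfAlgebraic E K) _
    · rintro _ ⟨m, hm, z, hz, rfl⟩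
      exact ⟨z⁻¹, inv_mem hz, by rw [map_inv, inv_mul_cancel_left]; exact (h2 hm).2⟩
  refine st.herm.sisom_le_of_hasTv (fun w c hw hc' => ?_) (.inl (by omega))
  obtain ⟨m, hm, z, hz, e⟩ := hG (st.herm.tv_mem_sisom hw hc')
  obtain ⟨p, f, hp, _, -, f0, hq⟩ := k.pp
  have pw : ∀ (n : ℕ) x, (tv B w c hw hc' ^ n) x = x + (n * (c * B w x)) • w := fun n x => by
    induction n with
    | zero => simp
    | succ n ih =>
      rw [pow_succ', LinearEquiv.mul_apply, ih, tv_apply, map_add, map_smul, hw, smul_zero, add_zero,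
        add_assoc, ← add_smul]
      push_cast
      rw [add_mul, one_mul]
  have q0 : (q : E) = 0 := by
    rw [hq, Nat.cast_pow, CharP.cast_eq_zero, zero_pow f0.ne']
  have e1 : tv B w c hw hc' ^ (q + 1) = tv B w c hw hc' := LinearEquiv.ext fun x => by
    rw [pw, tv_apply]
    push_cast
    rw [q0, zero_add, one_mul]
  rw [← e1, e, Commute.mul_pow (cen k hz m), ← map_pow, show z ^ (q + 1) = 1 from hz, map_one, one_mul]
  exact pow_mem hm _

end Cfsg.Agent.H2UvMax
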